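import Mathlib

/-!
# DGN / N1: rank count for a nilpotent endomorphism `Y ^ p = 0`

`finrank V = ∑_{i<p} finrank (ker Y ⊓ range (Y ^ i))`, and its consequences.
-/

set_option linter.unusedSectionVars false

namespace CfsgLib.DGN

open Module

section Domain

variable {A : Type*} [CommRing A] [IsDomain A] [IsNoetherianRing A]
  {V : Type*} [AddCommGroup V] [Module A V] [Module.Finite A V]

omit [IsNoetherianRing A] in
/-- rank-nullity over a domain. -/
theorem n1_rank_nullity {W : Type*} [AddCommGroup W] [Module A W] (f : V →ₗ[A] W) :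
    finrank A ↥(LinearMap.range f) + finrank A ↥(LinearMap.ker f) = finrank A V := by
  rw [← f.quotKerEquivRange.finrank_eq]
  exact Submodule.finrank_quotient_add_finrank _

/-- rank-nullity of `Y` on `range (Y ^ i)`. -/
theorem n1_step (Y : Module.End A V) (i : ℕ) :
    finrank A ↥(LinearMap.range (Y ^ i)) =
      finrank A ↥(LinearMap.range (Y ^ (i + 1))) +
        finrank A ↥(LinearMap.ker Y ⊓ LinearMap.range (Y ^ i)) := by
  have h := n1_rank_nullity (Y.domRestrict (LinearMap.range (Y ^ i)))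
  have h1 : LinearMap.range (Y.domRestrict (LinearMap.range (Y ^ i))) =
      LinearMap.range (Y ^ (i + 1)) := by
    rw [LinearMap.range_domRestrict, pow_succ', Module.End.mul_eq_comp, LinearMap.range_comp]
  have h2 : finrank A ↥(LinearMap.ker (Y.domRestrict (LinearMap.range (Y ^ i)))) =
      finrank A ↥(LinearMap.ker Y ⊓ LinearMap.range (Y ^ i)) := by
    rw [LinearMap.ker_domRestrict, ← Submodule.finrank_map_subtype_eq, Submodule.map_comap_subtype,
      inf_comm]
  rw [h1, h2] at h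
  exact h.symm

theorem n1_sum' (Y : Module.End A V) (k : ℕ) :
    finrank A V = finrank A ↥(LinearMap.range (Y ^ k)) +
      ∑ i ∈ Finset.range k, finrank A ↥(LinearMap.ker Y ⊓ LinearMap.range (Y ^ i)) := by
  induction k with
  | zero =>
    rw [pow_zero, Module.End.one_eq_id, LinearMap.range_id, finrank_top]
    simp
  | succ k ih =>
    rw [Finset.sum_range_succ, ih, n1_step Y k]
    ring

theorem n1_sum (Y : Module.End A V) {p : ℕ} (hY : Y ^ p = 0) :
    finrank A V =
      ∑ i ∈ Finset.range p, finrank A ↥(LinearMap.ker Y ⊓ LinearMap.range (Y ^ i)) := by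
  rw [n1_sum' Y p, hY, LinearMap.range_zero, finrank_bot, zero_add]

omit [IsDomain A] [IsNoetherianRing A] [Module.Finite A V] in
theorem n1_range_le (Y : Module.End A V) {i j : ℕ} (h : i ≤ j) :
    LinearMap.range (Y ^ j) ≤ LinearMap.range (Y ^ i) := by
  obtain ⟨k, rfl⟩ := Nat.exists_eq_add_of_le h
  rw [pow_add, Module.End.mul_eq_comp]
  exact LinearMap.range_comp_le_range _ _

omit [IsDomain A] [IsNoetherianRing A] [Module.Finite A V] in
theorem n1_range_le_ker (Y : Module.End A V) {p : ℕ} (hY : Y ^ p = 0) :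
    LinearMap.range (Y ^ (p - 1)) ≤ LinearMap.ker Y := by
  rintro _ ⟨w, rfl⟩
  rcases p with _ | p
  · have h1 : (1 : Module.End A V) = 0 := by simpa using hY
    have : Y = 0 := by rw [← mul_one Y, h1, mul_zero]
    simp [this]
  · rw [LinearMap.mem_ker, ← Module.End.mul_apply, Nat.add_sub_cancel, ← pow_succ', hY]
    rfl

theorem n1_le_k (Y : Module.End A V) {p : ℕ} (hY : Y ^ p = 0) {i : ℕ} (hi : i < p) :
    finrank A ↥(LinearMap.range (Y ^ (p - 1))) ≤
      finrank A ↥(LinearMap.ker Y ⊓ LinearMap.range (Y ^ i)) :=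
  Submodule.finrank_mono (le_inf (n1_range_le_ker Y hY) (n1_range_le Y (by omega)))

/-- `k_0 + (p-1) r ≤ n`. -/
theorem n1_ker_add_le (Y : Module.End A V) {p : ℕ} (hp : 0 < p) (hY : Y ^ p = 0) :
    finrank A ↥(LinearMap.ker Y) + (p - 1) * finrank A ↥(LinearMap.range (Y ^ (p - 1))) ≤
      finrank A V := by
  obtain ⟨q, rfl⟩ : ∃ q, p = q + 1 := ⟨p - 1, by omega⟩
  rw [n1_sum Y hY, Finset.sum_range_succ']
  have h0 : LinearMap.ker Y ⊓ LinearMap.range (Y ^ 0) = LinearMap.ker Y := by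
    rw [pow_zero, Module.End.one_eq_id, LinearMap.range_id, inf_top_eq]
  rw [h0, add_comm]
  refine Nat.add_le_add_right ?_ _
  calc (q + 1 - 1) * finrank A ↥(LinearMap.range (Y ^ (q + 1 - 1)))
      = ∑ _i ∈ Finset.range q, finrank A ↥(LinearMap.range (Y ^ (q + 1 - 1))) := by simp
    _ ≤ _ := Finset.sum_le_sum fun i hi =>
        n1_le_k Y hY (by have := Finset.mem_range.1 hi; omega)

/-- N1 (a): `p · rank Y^(p-1) ≤ n` (any noetherian domain, e.g. a PID). -/
theorem n1a (Y : Module.End A V) {p : ℕ} (hY : Y ^ p = 0) :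
    p * finrank A ↥(LinearMap.range (Y ^ (p - 1))) ≤ finrank A V := by
  rw [n1_sum Y hY]
  calc p * finrank A ↥(LinearMap.range (Y ^ (p - 1)))
      = ∑ _i ∈ Finset.range p, finrank A ↥(LinearMap.range (Y ^ (p - 1))) := by simp
    _ ≤ _ := Finset.sum_le_sum fun i hi => n1_le_k Y hY (Finset.mem_range.1 hi)

/-- N1 (d): `n = p r + 1 ⇒ finrank ker Y ≤ r + 1`. -/
theorem n1d (Y : Module.End A V) {p : ℕ} (hp : 0 < p) (hY : Y ^ p = 0)
    (h : finrank A V = p * finrank A ↥(LinearMap.range (Y ^ (p - 1))) + 1) :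
    finrank A ↥(LinearMap.ker Y) ≤ finrank A ↥(LinearMap.range (Y ^ (p - 1))) + 1 := by
  have h1 := n1_ker_add_le Y hp hY
  obtain ⟨q, rfl⟩ : ∃ q, p = q + 1 := ⟨p - 1, by omega⟩
  simp only [Nat.add_sub_cancel] at h h1 ⊢
  rw [h] at h1
  nlinarith

end Domain

section Field

variable {F : Type*} [Field F] {V : Type*} [AddCommGroup V] [Module F V] [FiniteDimensional F V]

/-- N1 (b), first half: `n ≤ p r ⇒ ker Y = range Y^(p-1)`. -/
theorem n1b (Y : Module.End F V) {p : ℕ} (hp : 0 < p) (hY : Y ^ p = 0)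
    (h : finrank F V ≤ p * finrank F ↥(LinearMap.range (Y ^ (p - 1)))) :
    LinearMap.ker Y = LinearMap.range (Y ^ (p - 1)) := by
  have h1 := n1_ker_add_le Y hp hY
  symm
  refine Submodule.eq_of_le_of_finrank_le (n1_range_le_ker Y hY) ?_
  obtain ⟨q, rfl⟩ : ∃ q, p = q + 1 := ⟨p - 1, by omega⟩
  simp only [Nat.add_sub_cancel] at h h1 ⊢
  nlinarith

/-- N1 (b), second half: `ker Y ≤ range Y^(p-1) ⇒ n = p r`. -/
theorem n1b' (Y : Module.End F V) {p : ℕ} (hY : Y ^ p = 0)
    (h : LinearMap.ker Y ≤ LinearMap.range (Y ^ (p - 1))) :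
    finrank F V = p * finrank F ↥(LinearMap.range (Y ^ (p - 1))) := by
  refine le_antisymm ?_ (n1a Y hY)
  rw [n1_sum Y hY]
  calc _ ≤ ∑ _i ∈ Finset.range p, finrank F ↥(LinearMap.range (Y ^ (p - 1))) :=
        Finset.sum_le_sum fun i _ => Submodule.finrank_mono (inf_le_left.trans h)
    _ = _ := by simp

/-- N1 (c): `ker Y ≤ F v + range Y^(p-1)`, `v ∈ ker Y`, `v ∉ range Y ⇒ n = p r + 1`. -/
theorem n1c (Y : Module.End F V) {p : ℕ} (hp : 1 < p) (hY : Y ^ p = 0) {v : V}
    (hv : Y v = 0) (hv' : v ∉ LinearMap.range Y)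
    (h : LinearMap.ker Y ≤ Submodule.span F {v} ⊔ LinearMap.range (Y ^ (p - 1))) :
    finrank F V = p * finrank F ↥(LinearMap.range (Y ^ (p - 1))) + 1 := by
  set r := finrank F ↥(LinearMap.range (Y ^ (p - 1))) with hr
  have hvr : v ∉ LinearMap.range (Y ^ (p - 1)) := fun hh => hv' (by
    have := n1_range_le Y (show 1 ≤ p - 1 by omega) hh
    rwa [pow_one] at this)
  have hv0 : v ≠ 0 := fun h0 => hvr (h0 ▸ Submodule.zero_mem _)
  have hk0 : finrank F ↥(LinearMap.ker Y) ≤ r + 1 := by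
    refine (Submodule.finrank_mono h).trans ?_
    refine (Submodule.finrank_add_le_finrank_add_finrank _ _).trans ?_
    rw [finrank_span_singleton hv0]
    omega
  have hk0' : r + 1 ≤ finrank F ↥(LinearMap.ker Y) :=
    Submodule.finrank_lt_finrank_of_lt
      (lt_of_le_of_ne (n1_range_le_ker Y hY) fun hh => hvr (hh ▸ hv))
  have hk : ∀ i, finrank F ↥(LinearMap.ker Y ⊓ LinearMap.range (Y ^ (i + 1))) ≤ r := by
    intro i
    have hlt : LinearMap.ker Y ⊓ LinearMap.range (Y ^ (i + 1)) < LinearMap.ker Y := by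
      refine lt_of_le_of_ne inf_le_left fun hh => hv' ?_
      have h2 : v ∈ LinearMap.ker Y ⊓ LinearMap.range (Y ^ (i + 1)) := hh.symm ▸ hv
      have := n1_range_le Y (show 1 ≤ i + 1 by omega) h2.2
      rwa [pow_one] at this
    have := Submodule.finrank_lt_finrank_of_lt hlt
    omega
  have h1 := n1_ker_add_le Y (by omega) hY
  have h2 := n1_sum Y hY
  obtain ⟨q, rfl⟩ : ∃ q, p = q + 1 := ⟨p - 1, by omega⟩
  rw [Finset.sum_range_succ'] at h2
  have h0 : LinearMap.ker Y ⊓ LinearMap.range (Y ^ 0) = LinearMap.ker Y := by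
    rw [pow_zero, Module.End.one_eq_id, LinearMap.range_id, inf_top_eq]
  rw [h0] at h2
  have h3 : ∑ i ∈ Finset.range q, finrank F ↥(LinearMap.ker Y ⊓ LinearMap.range (Y ^ (i + 1))) ≤
      q * r := by
    calc _ ≤ ∑ _i ∈ Finset.range q, r := Finset.sum_le_sum fun i _ => hk i
      _ = q * r := by simp
  rw [← hr, Nat.add_sub_cancel] at h1
  nlinarith

end Field

end CfsgLib.DGN
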