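import Mathlib
import Cfsg.Agent.Lib.DGN.N1

/-!
# DGN / GEN: the generic shifted cyclic subgroup acts freely on a permutation module

For commuting permutations `π u` of `Ω` with `π u ^ p = 1` and generic coefficients `c u = X u`,
`y = ∑ c_u (π u - 1)` satisfies `ker y = range y ^ (p-1)` away from the common fixed points.
-/

set_option linter.unusedSectionVars false

namespace CfsgLib.DGN

open Module

/-- a sum of commuting `p`-nilpotent elements is `p`-nilpotent in characteristic `p`. -/
theorem gen_sum_pow {A : Type*} [Ring A] {p : ℕ} (hp : p.Prime) (hA : (p : A) = 0) {ι : Type*}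
    (s : Finset ι) (a : ι → A) (hc : ∀ u v, Commute (a u) (a v)) (ha : ∀ u, a u ^ p = 0) :
    (∑ u ∈ s, a u) ^ p = 0 := by
  classical
  induction s using Finset.induction_on with
  | empty => simp [hp.ne_zero]
  | insert u s hu ih =>
    rw [Finset.sum_insert hu]
    obtain ⟨r, hr⟩ := (Commute.sum_right s a (a u) fun v _ => hc u v).exists_add_pow_prime_eq hp
    rw [hr, ih, ha, hA]
    simp

/-- `(x - 1) ^ p = 0` if `x ^ p = 1` in characteristic `p`. -/
theorem gen_sub_one_pow {A : Type*} [Ring A] {p : ℕ} (hp : p.Prime) (hA : (p : A) = 0) {x : A}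
    (hx : x ^ p = 1) : (x - 1) ^ p = 0 := by
  obtain ⟨r, hr⟩ := (Commute.one_right (x - 1)).exists_add_pow_prime_eq hp
  rw [sub_add_cancel, hx, hA, one_pow] at hr
  simpa using hr.symm

/-- the rank does not drop from a rational point to the generic point. -/
theorem gen_rank_le {R k K : Type*} [CommRing R] [Field k] [Field K] (ev : R →+* k) (c : k →+* R)
    (hc : ∀ a, ev (c a) = a) (i : R →+* K) (hi : Function.Injective i) {n : Type*} [Fintype n]
    [DecidableEq n] (Φ : Matrix n n R) : (Φ.map ev).rank ≤ (Φ.map i).rank := by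
  obtain ⟨V, U, e, -, -, h⟩ := Matrix.exists_rank_normal_form (Φ.map ev)
  set j : Fin (Φ.map ev).rank → n := fun x => e.symm (Sum.inl x) with hj
  set N : Matrix (Fin (Φ.map ev).rank) (Fin (Φ.map ev).rank) R :=
    (V.map c * Φ * U.map c).submatrix j j with hN
  have hV : ∀ W : Matrix n n k, (W.map c).map ev = W := fun W => by
    ext a b
    simp [hc]
  have h1 : N.map ev = 1 := by
    have : N.map ev = ((V.map c * Φ * U.map c).map ev).submatrix j j := rfl
    rw [this, Matrix.map_mul, Matrix.map_mul, hV, hV, h]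
    ext a b
    simp [hj, Matrix.one_apply]
  have h2 : N.det ≠ 0 := by
    intro h0
    have := ev.map_det N
    rw [h0, map_zero, RingHom.mapMatrix_apply, h1, Matrix.det_one] at this
    exact zero_ne_one this
  have h3 : (N.map i).det ≠ 0 := by
    intro h0
    have := i.map_det N
    rw [RingHom.mapMatrix_apply, h0] at this
    exact h2 (hi (by rw [this, map_zero]))
  have h4 := Matrix.rank_of_det_ne_zero h3
  rw [Fintype.card_fin] at h4
  rw [← h4]
  have h5 : N.map i = ((V.map c).map i * Φ.map i * (U.map c).map i).submatrix j j := by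
    rw [← Matrix.map_mul, ← Matrix.map_mul]
    rfl
  rw [h5]
  refine (Matrix.rank_submatrix_le _ _ _).trans ?_
  exact (Matrix.rank_mul_le_left _ _).trans (Matrix.rank_mul_le_right _ _)

section Mat

variable {ι : Type*} [Fintype ι] {Ω : Type*} [Fintype Ω] [DecidableEq Ω]

/-- the matrix of `∑ c_u (π u - 1)`. -/
def genMat {A : Type*} [CommRing A] (π : ι → Equiv.Perm Ω) (c : ι → A) : Matrix Ω Ω A :=
  ∑ u, c u • ((π u).permMatrix A - 1)

theorem genMat_map {A B : Type*} [CommRing A] [CommRing B] (φ : A →+* B) (π : ι → Equiv.Perm Ω)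
    (c : ι → A) : (genMat π c).map φ = genMat π (fun u => φ (c u)) := by
  ext a b
  simp only [genMat, Matrix.map_apply, Matrix.sum_apply, Matrix.smul_apply, Matrix.sub_apply,
    smul_eq_mul, map_sum, map_mul, map_sub, Equiv.Perm.permMatrix, PEquiv.toMatrix_apply,
    Matrix.one_apply, apply_ite φ, map_one, map_zero]

theorem genMat_mulVec {A : Type*} [CommRing A] (π : ι → Equiv.Perm Ω) (c : ι → A) (f : Ω → A)
    (ω : Ω) : (genMat π c).mulVec f ω = ∑ u, c u * (f (π u ω) - f ω) := by
  simp [genMat, Matrix.sum_mulVec, Matrix.smul_mulVec, Matrix.sub_mulVec,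
    Matrix.permMatrix_mulVec, Finset.sum_apply]

end Mat

section Op

variable {K : Type*} [Field K] {ι : Type*} [Fintype ι] {Ω : Type*} {p : ℕ}

/-- `y ^ p = 0` for arbitrary coefficients. -/
theorem gen_pow [hp : Fact p.Prime] [CharP K p] (π : ι → Equiv.Perm Ω)
    (hc : ∀ u v, Commute (π u) (π v)) (hπ : ∀ u, π u ^ p = 1) (c : ι → K)
    (y : Module.End K (Ω → K)) (hy : ∀ f ω, y f ω = ∑ u, c u * (f (π u ω) - f ω)) :
    y ^ p = 0 := by
  set P : Equiv.Perm Ω → Module.End K (Ω → K) := fun s => LinearMap.funLeft K K s with hP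
  have hPpow : ∀ (s : Equiv.Perm Ω) (n : ℕ), P s ^ n = P (s ^ n) := by
    intro s n
    induction n with
    | zero => ext f ω; simp [hP]
    | succ n ih =>
      rw [pow_succ', ih, pow_succ]
      rfl
  have hy' : y = ∑ u, c u • (P (π u) - 1) := by
    refine LinearMap.ext fun f => funext fun ω => ?_
    rw [hy]
    simp [hP, LinearMap.sum_apply, Finset.sum_apply, LinearMap.funLeft_apply]
  have hA : (p : Module.End K (Ω → K)) = 0 := by
    rw [← map_natCast (algebraMap K (Module.End K (Ω → K))), CharP.cast_eq_zero, map_zero]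
  rw [hy']
  refine gen_sum_pow hp.out hA _ _ (fun u v => ?_) (fun u => ?_)
  · have h1 : Commute (P (π u)) (P (π v)) := by
      refine LinearMap.ext fun f => funext fun ω => ?_
      have := congrArg (fun s : Equiv.Perm Ω => f (s ω)) (hc u v).eq
      exact this.symm
    exact ((h1.sub_left (Commute.one_left _)).sub_right (Commute.one_right _)).smul_left _
      |>.smul_right _
  · rw [smul_pow, gen_sub_one_pow hp.out hA, smul_zero]
    rw [hPpow, hπ]
    ext f ω
    simp [hP]

/-- a fixed point free permutation of order `p` has at most `|Ω| / p` independent invariants. -/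
theorem gen_ker_le [Fintype Ω] [hp : Fact p.Prime] (s : Equiv.Perm Ω) (hs : s ^ p = 1)
    (hfix : ∀ ω, s ω ≠ ω) (W : Submodule K (Ω → K)) (hW : ∀ f ∈ W, ∀ ω, f (s ω) = f ω) :
    p * finrank K W ≤ Fintype.card Ω := by
  classical
  let T := Quotient (Equiv.Perm.SameCycle.setoid s)
  have : Fintype T := Fintype.ofFinite T
  have h1 : finrank K W ≤ Fintype.card T := by
    have hinj : Function.Injective
        ((LinearMap.funLeft K K (fun t : T => t.out)).comp W.subtype) := by
      rw [injective_iff_map_eq_zero]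
      rintro ⟨f, hf⟩ h0
      refine Subtype.ext (funext fun ω => ?_)
      have h2 : f ((Quotient.mk (Equiv.Perm.SameCycle.setoid s) ω).out) = 0 :=
        congrFun h0 (Quotient.mk _ ω)
      have h3 : s.SameCycle ((Quotient.mk (Equiv.Perm.SameCycle.setoid s) ω).out) ω :=
        Quotient.mk_out (s := Equiv.Perm.SameCycle.setoid s) ω
      obtain ⟨n, hn⟩ := h3.exists_nat_pow_eq
      have h4 : ∀ (m : ℕ) x, f ((s ^ m) x) = f x := by
        intro m
        induction m with
        | zero => intro x; rfl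
        | succ m ih => intro x; rw [pow_succ', Equiv.Perm.mul_apply, hW f hf, ih]
      change f ω = 0
      rw [← hn, h4, h2]
    have := LinearMap.finrank_le_finrank_of_injective hinj
    rwa [Module.finrank_fintype_fun_eq_card] at this
  have h2 : Fintype.card (Fin p × T) ≤ Fintype.card Ω := by
    refine Fintype.card_le_of_injective (fun x : Fin p × T => (s ^ (x.1 : ℕ)) x.2.out) ?_
    rintro ⟨i, t⟩ ⟨j, t'⟩ h
    have h' : (s ^ (i : ℕ)) t.out = (s ^ (j : ℕ)) t'.out := h
    have ht : t = t' := by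
      refine Quotient.out_equiv_out.1 ?_
      change s.SameCycle t.out t'.out
      have e1 : s.SameCycle t.out ((s ^ (i : ℕ)) t.out) := ⟨(i : ℕ), by simp⟩
      have e2 : s.SameCycle t'.out ((s ^ (j : ℕ)) t'.out) := ⟨(j : ℕ), by simp⟩
      exact e1.trans (h' ▸ e2.symm)
    subst ht
    have hper : Function.minimalPeriod s t.out = p :=
      Function.minimalPeriod_eq_prime
        (by
          change s^[p] t.out = t.out
          rw [← Equiv.Perm.coe_pow, hs]
          rfl) (hfix _)
    have := Function.iterate_injOn_Iio_minimalPeriod (f := s) (x := t.out)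
      (x₁ := (i : ℕ)) (by rw [hper]; exact i.2) (x₂ := (j : ℕ)) (by rw [hper]; exact j.2)
      (by simpa [← Equiv.Perm.coe_pow] using h')
    rw [Fin.ext this]
  rw [Fintype.card_prod, Fintype.card_fin] at h2
  exact (Nat.mul_le_mul_left p h1).trans h2

/-- `p · dim ker Y ≤ n ⇒ n ≤ p · rank Y ^ (p-1)`. -/
theorem gen_free {V : Type*} [AddCommGroup V] [Module K V] [FiniteDimensional K V]
    (Y : Module.End K V) (hp : 0 < p) (hY : Y ^ p = 0)
    (h : p * finrank K ↥(LinearMap.ker Y) ≤ finrank K V) :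
    finrank K V ≤ p * finrank K ↥(LinearMap.range (Y ^ (p - 1))) := by
  have h1 := n1_sum' Y (p - 1)
  have h2 : ∑ i ∈ Finset.range (p - 1), finrank K ↥(LinearMap.ker Y ⊓ LinearMap.range (Y ^ i)) ≤
      (p - 1) * finrank K ↥(LinearMap.ker Y) := by
    calc _ ≤ ∑ _i ∈ Finset.range (p - 1), finrank K ↥(LinearMap.ker Y) :=
          Finset.sum_le_sum fun i _ => Submodule.finrank_mono inf_le_left
      _ = _ := by simp
  obtain ⟨q, rfl⟩ : ∃ q, p = q + 1 := ⟨p - 1, by omega⟩
  simp only [Nat.add_sub_cancel] at h1 h2 ⊢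
  nlinarith

end Op

section Generic

open MvPolynomial

variable {p : ℕ} [hp : Fact p.Prime] {k : Type*} [Field k] [CharP k p] {ι : Type*} [Fintype ι]
  {K : Type*} [Field K] [Algebra (MvPolynomial ι k) K] [IsFractionRing (MvPolynomial ι k) K]

include hp in
theorem gen_charP (k : Type*) [Field k] [CharP k p] (ι : Type*) (K : Type*) [Field K]
    [Algebra (MvPolynomial ι k) K] : CharP K p :=
  (((algebraMap (MvPolynomial ι k) K).comp C).charP_iff_charP p).1 inferInstance

/-- **GEN**: some `π u0` without fixed point ⇒ `ker y = range y ^ (p-1)`. -/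
theorem gen {Ω : Type*} [Finite Ω] (π : ι → Equiv.Perm Ω)
    (hc : ∀ u v, Commute (π u) (π v)) (hπ : ∀ u, π u ^ p = 1) (u0 : ι) (hu0 : ∀ ω, π u0 ω ≠ ω)
    (y : Module.End K (Ω → K))
    (hy : ∀ f ω, y f ω =
      ∑ u, algebraMap (MvPolynomial ι k) K (X u) * (f (π u ω) - f ω)) :
    LinearMap.ker y = LinearMap.range (y ^ (p - 1)) := by
  classical
  have := Fintype.ofFinite Ω
  have := gen_charP (p := p) k ι K
  refine n1b y hp.out.pos (gen_pow π hc hπ _ y hy) ?_
  set ev : MvPolynomial ι k →+* k := eval (fun u => if u = u0 then 1 else 0) with hev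
  set Φ : Matrix Ω Ω (MvPolynomial ι k) := genMat π (fun u => X u) with hΦ
  have hrank : ∀ {F : Type _} [Field F] (φ : MvPolynomial ι k →+* F),
      ((Φ ^ (p - 1)).map φ).rank =
        finrank F ↥(LinearMap.range ((Matrix.toLin' (Φ.map φ)) ^ (p - 1))) := by
    intro F _ φ
    rw [Matrix.map_pow, ← Matrix.toLin'_pow, Matrix.rank, Matrix.toLin'_apply']
  have hyΦ : y = Matrix.toLin' (Φ.map (algebraMap (MvPolynomial ι k) K)) := by
    refine LinearMap.ext fun f => funext fun ω => ?_
    rw [hy, hΦ, genMat_map, Matrix.toLin'_apply, genMat_mulVec]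
  have h0 : ∀ f ω, Matrix.toLin' (Φ.map ev) f ω = f (π u0 ω) - f ω := by
    intro f ω
    rw [hΦ, genMat_map, Matrix.toLin'_apply, genMat_mulVec]
    simp [hev]
  have h1 := gen_rank_le ev C (fun a => by simp [hev]) (algebraMap (MvPolynomial ι k) K)
    (IsFractionRing.injective _ K) (Φ ^ (p - 1))
  have h2 := gen_free (Matrix.toLin' (Φ.map ev)) hp.out.pos
    (gen_pow π hc hπ (fun u => ev (X u)) _ (fun f ω => by
      rw [hΦ, genMat_map, Matrix.toLin'_apply, genMat_mulVec]))
    (by
      rw [Module.finrank_fintype_fun_eq_card]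
      refine gen_ker_le (π u0) (hπ u0) hu0 _ fun f hf ω => ?_
      have := congrFun (LinearMap.mem_ker.1 hf) ω
      rw [h0] at this
      exact sub_eq_zero.1 this)
  have h3 : ((Φ ^ (p - 1)).map (algebraMap (MvPolynomial ι k) K)).rank =
      finrank K ↥(LinearMap.range (y ^ (p - 1))) := by
    rw [hyΦ, Matrix.map_pow, ← Matrix.toLin'_pow, Matrix.rank, Matrix.toLin'_apply']
  rw [Module.finrank_fintype_fun_eq_card] at h2 ⊢
  rw [← hrank ev] at h2
  rw [← h3]
  exact h2.trans (Nat.mul_le_mul_left p h1)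

/-- **GEN'**: `y f = 0` and `f = 0` on the common fixed points ⇒ `f ∈ range y ^ (p-1)`. -/
theorem gen' {Ω : Type*} [Finite Ω] (π : ι → Equiv.Perm Ω)
    (hc : ∀ u v, Commute (π u) (π v)) (hπ : ∀ u, π u ^ p = 1)
    (y : Module.End K (Ω → K))
    (hy : ∀ f ω, y f ω =
      ∑ u, algebraMap (MvPolynomial ι k) K (X u) * (f (π u ω) - f ω))
    (f : Ω → K) (hf : y f = 0) (hfix : ∀ ω, (∀ u, π u ω = ω) → f ω = 0) :
    f ∈ LinearMap.range (y ^ (p - 1)) := by
  classical
  -- the moving set depends only on the orbit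
  have hmov : ∀ u v ω, π u (π v ω) = π v ω ↔ π u ω = ω := by
    intro u v ω
    have : π u (π v ω) = π v (π u ω) := congrArg (fun s : Equiv.Perm Ω => s ω) (hc u v).eq
    rw [this, (π v).apply_eq_iff_eq]
  rcases isEmpty_or_nonempty ι with hι | hι
  · have : f = 0 := funext fun ω => hfix ω fun u => hι.elim u
    rw [this]
    exact Submodule.zero_mem _
  set ch : Ω → ι := fun ω => Classical.epsilon (fun u => π u ω ≠ ω) with hch
  have hchinv : ∀ v ω, ch (π v ω) = ch ω := by
    intro v ω
    simp only [hch, ne_eq, hmov]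
  set S : ι → Ω → Prop := fun u ω => π u ω ≠ ω ∧ ch ω = u with hS
  have hSinv : ∀ u v ω, S u (π v ω) ↔ S u ω := by
    intro u v ω
    simp only [hS, ne_eq, hmov, hchinv]
  have hdec : f = ∑ u, fun ω => if S u ω then f ω else 0 := by
    funext ω
    rw [Finset.sum_apply]
    by_cases h : ∃ u, π u ω ≠ ω
    · have h1 : π (ch ω) ω ≠ ω := Classical.epsilon_spec h
      rw [Finset.sum_eq_single (ch ω)]
      · rw [if_pos ⟨h1, rfl⟩]
      · intro u _ hu
        rw [if_neg fun h2 => hu h2.2.symm]
      · intro h2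
        exact absurd (Finset.mem_univ _) h2
    · push Not at h
      simp [hfix ω h]
  rw [hdec]
  refine Submodule.sum_mem _ fun u0 _ => ?_
  -- restriction to the invariant set `S u0`
  let π' : ι → Equiv.Perm {ω // S u0 ω} := fun v => (π v).subtypePerm (hSinv u0 v)
  let y' : Module.End K ({ω // S u0 ω} → K) :=
    ∑ u, algebraMap (MvPolynomial ι k) K (X u) • (LinearMap.funLeft K K (π' u) - 1)
  have hy' : ∀ g ω, y' g ω =
      ∑ u, algebraMap (MvPolynomial ι k) K (X u) * (g (π' u ω) - g ω) := by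
    intro g ω
    simp only [y', LinearMap.sum_apply, Finset.sum_apply, LinearMap.smul_apply, Pi.smul_apply,
      LinearMap.sub_apply, Pi.sub_apply, LinearMap.funLeft_apply, Module.End.one_apply,
      smul_eq_mul]
  have hgen := gen (p := p) π'
    (fun u v => Equiv.ext fun ω => Subtype.ext (congrArg (fun s : Equiv.Perm Ω => s ω) (hc u v).eq))
    (fun u => by
      simp only [π', Equiv.Perm.subtypePerm_pow]
      exact Equiv.ext fun ω => Subtype.ext (congrArg (fun s : Equiv.Perm Ω => s ω) (hπ u)))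
    u0 (fun ω h => ω.2.1 (congrArg Subtype.val h)) y' hy'
  let E : ({ω // S u0 ω} → K) →ₗ[K] (Ω → K) :=
    { toFun := fun g ω => if h : S u0 ω then g ⟨ω, h⟩ else 0
      map_add' := fun g g' => funext fun ω => by
        by_cases h : S u0 ω <;> simp [h]
      map_smul' := fun a g => funext fun ω => by
        by_cases h : S u0 ω <;> simp [h] }
  have hE : ∀ g ω, E g ω = if h : S u0 ω then g ⟨ω, h⟩ else 0 := fun _ _ => rfl
  have hEy : ∀ g, E (y' g) = y (E g) := by
    intro g
    funext ω
    rw [hy, hE]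
    by_cases h : S u0 ω
    · rw [dif_pos h, hy']
      refine Finset.sum_congr rfl fun u _ => ?_
      rw [hE, hE, dif_pos h, dif_pos ((hSinv u0 u ω).2 h)]
      rfl
    · rw [dif_neg h]
      refine (Finset.sum_eq_zero fun u _ => ?_).symm
      rw [hE, hE, dif_neg h, dif_neg fun h2 => h ((hSinv u0 u ω).1 h2), sub_zero, mul_zero]
  have hEpow : ∀ (n : ℕ) g, E ((y' ^ n) g) = (y ^ n) (E g) := by
    intro n
    induction n with
    | zero => intro g; rfl
    | succ n ih =>
      intro g
      rw [pow_succ', pow_succ', Module.End.mul_apply, Module.End.mul_apply, hEy, ih]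
  have hk : (fun ω : {ω // S u0 ω} => f ω) ∈ LinearMap.ker y' := by
    rw [LinearMap.mem_ker]
    funext ω
    rw [hy']
    have := congrFun hf ω
    rw [hy] at this
    exact this
  rw [hgen] at hk
  obtain ⟨g, hg⟩ := hk
  refine ⟨E g, ?_⟩
  rw [← hEpow, hg]
  funext ω
  rw [hE]
  by_cases h : S u0 ω
  · rw [dif_pos h, if_pos h]
  · rw [dif_neg h, if_neg h]

end Generic

section Action

open MvPolynomial

variable {p : ℕ} [hp : Fact p.Prime] {k : Type*} [Field k] [CharP k p] {Q : Type*} [Group Q]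
  [Fintype Q] {K : Type*} [Field K] [Algebra (MvPolynomial Q k) K]
  [IsFractionRing (MvPolynomial Q k) K] {Ω : Type*} [Finite Ω] [MulAction Q Ω]

/-- **GEN'** for a `Q`-set, convention `(u f) ω = f (u⁻¹ • ω)`. -/
theorem gen_inv (hQ : ∀ u v : Q, u * v = v * u) (hπ : ∀ (u : Q) (ω : Ω), u ^ p • ω = ω)
    (y : Module.End K (Ω → K))
    (hy : ∀ f ω, y f ω =
      ∑ u : Q, algebraMap (MvPolynomial Q k) K (X u) * (f (u⁻¹ • ω) - f ω))
    (f : Ω → K) (hf : y f = 0) (hfix : ∀ ω, (∀ u : Q, u • ω = ω) → f ω = 0) :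
    f ∈ LinearMap.range (y ^ (p - 1)) := by
  refine gen' (k := k) (fun u : Q => MulAction.toPerm u⁻¹) (fun u v => Equiv.ext fun ω => ?_)
    (fun u => Equiv.ext fun ω => ?_) y hy f hf fun ω h => hfix ω fun u => ?_
  · change u⁻¹ • v⁻¹ • ω = v⁻¹ • u⁻¹ • ω
    rw [smul_smul, smul_smul, hQ]
  · have : (MulAction.toPerm u⁻¹ : Equiv.Perm Ω) ^ p = MulAction.toPerm (u⁻¹ ^ p) :=
      (map_pow (MulAction.toPermHom Q Ω) u⁻¹ p).symm
    rw [this]
    exact hπ u⁻¹ ω
  · have := h u⁻¹
    rwa [inv_inv] at this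

/-- **GEN'** for a `Q`-set, convention `(u f) ω = f (u • ω)`. -/
theorem gen_smul (hQ : ∀ u v : Q, u * v = v * u) (hπ : ∀ (u : Q) (ω : Ω), u ^ p • ω = ω)
    (y : Module.End K (Ω → K))
    (hy : ∀ f ω, y f ω =
      ∑ u : Q, algebraMap (MvPolynomial Q k) K (X u) * (f (u • ω) - f ω))
    (f : Ω → K) (hf : y f = 0) (hfix : ∀ ω, (∀ u : Q, u • ω = ω) → f ω = 0) :
    f ∈ LinearMap.range (y ^ (p - 1)) := by
  refine gen' (k := k) (fun u : Q => MulAction.toPerm u) (fun u v => Equiv.ext fun ω => ?_)
    (fun u => Equiv.ext fun ω => ?_) y hy f hf fun ω h => hfix ω h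
  · change u • v • ω = v • u • ω
    rw [smul_smul, smul_smul, hQ]
  · have : (MulAction.toPerm u : Equiv.Perm Ω) ^ p = MulAction.toPerm (u ^ p) :=
      (map_pow (MulAction.toPermHom Q Ω) u p).symm
    rw [this]
    exact hπ u ω

end Action

end CfsgLib.DGN
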