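import Mathlib
import Cfsg.Agent.Lib.DGN.Gen

/-!
# DGN / SN + DEF: the maximal Jordan type does not change under a nilpotent deformation
-/

set_option autoImplicit false

namespace CfsgLib.DGN

open Module TensorProduct Polynomial

section SN

variable {F C : Type*} [Field F] [AddCommGroup C] [Module F C]

theorem cork_mul (f g : Module.End F C) (hf : Function.Injective f) :
    Module.rank F (C ⧸ LinearMap.range (f * g)) =
      Module.rank F (C ⧸ LinearMap.range f) + Module.rank F (C ⧸ LinearMap.range g) := by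
  have h1 : LinearMap.range (f * g) ≤ LinearMap.range f := by
    rintro _ ⟨x, rfl⟩; exact ⟨g x, rfl⟩
  have h2 : LinearMap.range g ≤ (LinearMap.range (f * g)).comap f := by
    rintro _ ⟨x, rfl⟩; exact ⟨x, rfl⟩
  have h3 : Function.Injective (Submodule.mapQ _ _ f h2) := by
    rw [← LinearMap.ker_eq_bot, eq_bot_iff]
    intro x hx
    obtain ⟨x, rfl⟩ := Submodule.mkQ_surjective _ x
    obtain ⟨y, hy⟩ := (Submodule.Quotient.mk_eq_zero _).1 hx
    exact (Submodule.Quotient.mk_eq_zero _).2 ⟨y, hf hy⟩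
  have h4 : LinearMap.range (Submodule.mapQ _ _ f h2) = LinearMap.ker (Submodule.factor h1) := by
    ext x
    obtain ⟨x, rfl⟩ := Submodule.mkQ_surjective _ x
    constructor
    · rintro ⟨y, hy⟩
      obtain ⟨y, rfl⟩ := Submodule.mkQ_surjective _ y
      rw [← hy]
      exact (Submodule.Quotient.mk_eq_zero _).2 ⟨y, rfl⟩
    · intro hx
      obtain ⟨y, rfl⟩ := (Submodule.Quotient.mk_eq_zero _).1 hx
      exact ⟨Submodule.Quotient.mk y, rfl⟩
  rw [LinearMap.rank_eq_of_surjective (Submodule.factor_surjective h1), ← h4, rank_range_of_injective _ h3]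

theorem cork_pow (f : Module.End F C) (hf : Function.Injective f) (n : ℕ) :
    Module.rank F (C ⧸ LinearMap.range (f ^ n)) = n * Module.rank F (C ⧸ LinearMap.range f) := by
  induction n with
  | zero =>
    have : Subsingleton (C ⧸ LinearMap.range (f ^ 0)) :=
      Submodule.Quotient.subsingleton_iff.2 (LinearMap.range_eq_top.2 fun x => ⟨x, rfl⟩)
    simp [rank_subsingleton']
  | succ n ih => rw [pow_succ', cork_mul _ _ hf, ih]; push_cast; ring

/-- SN -/
theorem sn (p : ℕ) [hp : Fact p.Prime] [CharP F p] (t β : Module.End F C) (hc : Commute t β)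
    (ht : Function.Injective t) (hβ : IsNilpotent β) :
    Module.rank F (C ⧸ LinearMap.range (t - β)) = Module.rank F (C ⧸ LinearMap.range t) := by
  rcases subsingleton_or_nontrivial C with h | h
  · rw [Subsingleton.elim (t - β) t]
  have : CharP (Module.End F C) p := charP_of_injective_algebraMap (algebraMap F _).injective p
  obtain ⟨N, hN⟩ := hβ
  have h1 : (t - β) ^ p ^ N = t ^ p ^ N := by
    rw [sub_pow_char_pow_of_commute p N hc, pow_eq_zero_of_le (Nat.lt_pow_self hp.out.one_lt).le hN, sub_zero]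
  have h0 : p ^ N ≠ 0 := pow_ne_zero _ hp.out.ne_zero
  have h2 : Function.Injective (t - β) := by
    have h3 := Module.End.iterate_injective ht (p ^ N)
    rw [← h1, ← Nat.succ_pred_eq_of_ne_zero h0, pow_succ, Module.End.mul_eq_comp, LinearMap.coe_comp] at h3
    exact h3.of_comp
  have h4 := cork_pow _ h2 (p ^ N)
  rw [h1, cork_pow _ ht] at h4
  exact ((Cardinal.natCast_mul_inj h0).1 h4).symm

end SN

section DEF

variable {F V : Type*} [Field F] [AddCommGroup V] [Module F V]

/-- evaluation `V[t] → V` at `t = B` -/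
noncomputable def evB (B : Module.End F V) : F[X] ⊗[F] V →ₗ[F] V :=
  TensorProduct.lift (aeval B).toLinearMap

theorem evB_tmul (B : Module.End F V) (q : F[X]) (v : V) : evB B (q ⊗ₜ v) = aeval B q v := rfl

theorem evB_one (B : Module.End F V) (v : V) : evB B (1 ⊗ₜ v) = v := by simp [evB_tmul]

theorem evB_X (B : Module.End F V) (m : F[X] ⊗[F] V) : evB B ((X : F[X]) • m) = B (evB B m) := by
  induction m with
  | zero => simp
  | tmul q v => simp [TensorProduct.smul_tmul', evB_tmul]
  | add a b ha hb => simp [ha, hb]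

theorem evB_bc {B f : Module.End F V} (h : Commute f B) (m : F[X] ⊗[F] V) :
    evB B (f.baseChange F[X] m) = f (evB B m) := by
  induction m with
  | zero => simp
  | tmul q v =>
    have : Commute f (aeval B q) := by
      induction q using Polynomial.induction_on' with
      | add a b ha hb => simpa using ha.add_right hb
      | monomial n a => simpa [aeval_monomial] using (Algebra.commute_algebraMap_right a f).mul_right (h.pow_right n)
    simpa [evB_tmul] using (congrArg (· v) this.eq).symm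
  | add a b ha hb => simp [ha, hb]

theorem exists_X (m : F[X] ⊗[F] V) : ∃ m', m = 1 ⊗ₜ evB 0 m + (X : F[X]) • m' := by
  induction m with
  | zero => exact ⟨0, by simp⟩
  | tmul q v =>
    refine ⟨q.divX ⊗ₜ v, ?_⟩
    have : aeval (0 : Module.End F V) q v = q.coeff 0 • v := by
      rw [← q.X_mul_divX_add, map_add, map_mul, aeval_X, zero_mul, zero_add, aeval_C]
      simp
    rw [evB_tmul, this, TensorProduct.smul_tmul', ← TensorProduct.smul_tmul, ← TensorProduct.add_tmul, smul_eq_mul,
      add_comm, smul_eq_C_mul, mul_one, X_mul_divX_add]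
  | add a b ha hb =>
    obtain ⟨a', ha⟩ := ha
    obtain ⟨b', hb⟩ := hb
    refine ⟨a' + b', ?_⟩
    conv_lhs => rw [ha, hb]
    rw [map_add, TensorProduct.tmul_add, smul_add]; abel

/-- a saturated submodule of `V[t]` has enough constant terms -/
theorem finrank_le_map [FiniteDimensional F V] (W : Submodule F[X] (F[X] ⊗[F] V))
    (hW : ∀ m, (X : F[X]) • m ∈ W → m ∈ W) :
    finrank F[X] W ≤ finrank F ((W.restrictScalars F).map (evB 0)) := by
  obtain ⟨n, ⟨b⟩⟩ := Submodule.nonempty_basis_of_pid (Module.finBasis F[X] (F[X] ⊗[F] V)) W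
  rw [finrank_eq_card_basis b]
  have : LinearIndependent F fun i => (⟨evB 0 (b i : F[X] ⊗[F] V), Submodule.mem_map_of_mem (b i).2⟩ :
      (W.restrictScalars F).map (evB (0 : Module.End F V))) := by
    rw [Fintype.linearIndependent_iff]
    intro c hc i
    obtain ⟨m', hm⟩ := exists_X ((∑ i, (C (c i) : F[X]) • b i : W) : F[X] ⊗[F] V)
    have h1 : evB (0 : Module.End F V) ((∑ i, (C (c i) : F[X]) • b i : W) : F[X] ⊗[F] V) = 0 := by
      have := congrArg Subtype.val hc
      have e : ∀ (a : F) (m : F[X] ⊗[F] V), (C a : F[X]) • m = a • m := fun a m => algebraMap_smul F[X] a m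
      simpa [e] using this
    rw [h1, TensorProduct.tmul_zero, zero_add] at hm
    have h2 : (∑ i, (C (c i) : F[X]) • b i : W) = (X : F[X]) • ⟨m', hW _ (hm ▸ Subtype.prop _)⟩ := Subtype.ext hm
    have h3 := congrArg (fun w => (b.repr w i).coeff 0) h2
    simp only [map_smul b.repr, Finsupp.smul_apply, smul_eq_mul, mul_coeff_zero, coeff_X_zero, zero_mul] at h3
    simpa [Finsupp.single_apply, Finset.sum_apply'] using h3
  exact this.fintype_card_le_finrank

theorem def_pow (p : ℕ) [hp : Fact p.Prime] [CharP F p] (Y0 Z B : Module.End F V) (h0Z : Commute Y0 Z)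
    (h0B : Commute Y0 B) (hZB : Commute Z B) (hY : Y0 ^ p = 0) (hZ : Z ^ p = 0) : (Y0 + Z * B) ^ p = 0 := by
  rcases subsingleton_or_nontrivial V with h | h
  · exact Subsingleton.elim _ _
  have : CharP (Module.End F V) p := charP_of_injective_algebraMap (algebraMap F _).injective p
  rw [add_pow_char_of_commute p (h0Z.mul_right h0B), hZB.mul_pow, hY, hZ, zero_mul, add_zero]

/-- DEF -/
theorem def_rank [FiniteDimensional F V] (p : ℕ) [hp : Fact p.Prime] [CharP F p] (Y0 Z B : Module.End F V)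
    (h0Z : Commute Y0 Z) (h0B : Commute Y0 B) (hZB : Commute Z B) (hY : Y0 ^ p = 0) (hZ : Z ^ p = 0)
    (hB : IsNilpotent B) (hn : finrank F V < p * (finrank F (LinearMap.range (Y0 ^ (p - 1))) + 1)) :
    finrank F (LinearMap.range ((Y0 + Z * B) ^ (p - 1))) = finrank F (LinearMap.range (Y0 ^ (p - 1))) := by
  refine le_antisymm (Nat.le_of_lt_succ (Nat.lt_of_mul_lt_mul_left
    ((n1a _ (def_pow p Y0 Z B h0Z h0B hZB hY hZ)).trans_lt hn))) ?_
  rcases subsingleton_or_nontrivial V with h | h
  · rw [Subsingleton.elim (Y0 + Z * B) Y0]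
  let bc := Module.End.baseChangeHom F F[X] V
  have hbc : ∀ f : Module.End F V, bc f = f.baseChange F[X] := fun _ => rfl
  let Y : Module.End F[X] (F[X] ⊗[F] V) := bc Y0 + (X : F[X]) • bc Z
  have hYp : Y ^ p = 0 := by
    have := gen_sum_pow hp.out (A := Module.End F[X] (F[X] ⊗[F] V)) (by
      rw [← map_natCast (algebraMap F _), CharP.cast_eq_zero, map_zero]) Finset.univ ![bc Y0, (X : F[X]) • bc Z]
      (by
        have := (h0Z.map bc).smul_right (X : F[X])
        simp only [Fin.forall_fin_two]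
        exact ⟨⟨Commute.refl _, this⟩, this.symm, Commute.refl _⟩)
      (Fin.forall_fin_two.2 ⟨by simp [← map_pow, hY], by simp [_root_.smul_pow, ← map_pow, hZ]⟩)
    simpa using this
  have hev : ∀ B' : Module.End F V, Commute Y0 B' → Commute Z B' → ∀ k m,
      evB B' ((Y ^ k) m) = ((Y0 + Z * B') ^ k) (evB B' m) := by
    intro B' h1 h2 k
    induction k with
    | zero => simp
    | succ k ih =>
      intro m
      rw [pow_succ', pow_succ', Module.End.mul_apply, Module.End.mul_apply, ← ih]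
      simp [Y, hbc, evB_X, evB_bc h1, evB_bc h2, h2.eq]
  have hev0 : ∀ m, evB 0 ((Y ^ (p - 1)) m) = (Y0 ^ (p - 1)) (evB 0 m) := fun m => by
    simpa using hev 0 (Commute.zero_right _) (Commute.zero_right _) (p - 1) m
  set Φ := Y ^ (p - 1) with hΦ
  have hsat : ∀ m, (X : F[X]) • m ∈ LinearMap.ker Φ → m ∈ LinearMap.ker Φ := fun m hm => by
    rw [LinearMap.mem_ker, map_smul] at hm
    exact (smul_eq_zero.1 hm).resolve_left X_ne_zero
  have hker : ((LinearMap.ker Φ).restrictScalars F).map (evB 0) = LinearMap.ker (Y0 ^ (p - 1)) := by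
    refine Submodule.eq_of_le_of_finrank_le ?_ ?_
    · rintro _ ⟨m, hm, rfl⟩
      rw [LinearMap.mem_ker, ← hev0, show Φ m = 0 from hm, map_zero]
    · have h1 := finrank_le_map _ hsat
      have h2 := n1_rank_nullity Φ
      have h3 := n1a Y hYp
      have h4 := LinearMap.finrank_range_add_finrank_ker (Y0 ^ (p - 1))
      rw [Module.finrank_baseChange] at h2 h3
      have h5 := Nat.le_of_lt_succ (Nat.lt_of_mul_lt_mul_left (h3.trans_lt hn))
      rw [← hΦ] at h5
      omega
  let I := (LinearMap.range Φ).restrictScalars F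
  let t0 : Module.End F (F[X] ⊗[F] V) := ((X : F[X]) • (1 : Module.End F[X] (F[X] ⊗[F] V))).restrictScalars F
  let b0 : Module.End F (F[X] ⊗[F] V) := (bc B).restrictScalars F
  have ht0 : I ≤ I.comap t0 := by
    rintro _ ⟨m, rfl⟩; exact ⟨(X : F[X]) • m, map_smul _ _ _⟩
  have hcm : Commute Φ (bc B) :=
    ((h0B.map bc).add_left ((hZB.map bc).smul_left (X : F[X]))).pow_left _
  have hb0 : I ≤ I.comap b0 := by
    rintro _ ⟨m, rfl⟩; exact ⟨bc B m, congrArg (· m) hcm.eq⟩
  let t : Module.End F (_ ⧸ I) := I.mapQ I t0 ht0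
  let β : Module.End F (_ ⧸ I) := I.mapQ I b0 hb0
  have key := sn p t β (by
      refine LinearMap.ext fun x => ?_
      obtain ⟨x, rfl⟩ := I.mkQ_surjective x
      exact congrArg I.mkQ (map_smul (bc B) (X : F[X]) x).symm) (by
      rw [← LinearMap.ker_eq_bot, eq_bot_iff]
      intro x hx
      obtain ⟨x, rfl⟩ := I.mkQ_surjective x
      obtain ⟨w, hw⟩ := (Submodule.Quotient.mk_eq_zero _).1 hx
      replace hw : Φ w = (X : F[X]) • x := hw
      have h1 : evB 0 w ∈ LinearMap.ker (Y0 ^ (p - 1)) := by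
        rw [LinearMap.mem_ker, ← hev0, hw, evB_X]; rfl
      rw [← hker] at h1
      obtain ⟨w', hw', h2⟩ := h1
      obtain ⟨w'', h3⟩ := exists_X (w - w')
      rw [map_sub, h2, sub_self, TensorProduct.tmul_zero, zero_add] at h3
      refine (Submodule.Quotient.mk_eq_zero _).2 ⟨w'', smul_right_injective _ (X_ne_zero (R := F)) ?_⟩
      show (X : F[X]) • Φ w'' = (X : F[X]) • x
      rw [← map_smul, ← h3, map_sub, hw, show Φ w' = 0 from hw', sub_zero]) (by
      obtain ⟨N, hN⟩ := hB
      refine ⟨N, ?_⟩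
      rw [← Submodule.mapQ_pow]
      refine LinearMap.ext fun x => ?_
      obtain ⟨x, rfl⟩ := I.mkQ_surjective x
      have : (b0 ^ N) x = (bc B ^ N) x := by
        rw [Module.End.pow_apply, Module.End.pow_apply]; rfl
      rw [← map_pow, hN, map_zero] at this
      exact congrArg I.mkQ this)
  -- (ii)
  have h2 : ∃ f : (V ⧸ LinearMap.range (Y0 ^ (p - 1))) →ₗ[F] (_ ⧸ I) ⧸ LinearMap.range t, Function.Surjective f := by
    let ψ : V →ₗ[F] (_ ⧸ I) ⧸ LinearMap.range t :=
      (LinearMap.range t).mkQ ∘ₗ I.mkQ ∘ₗ TensorProduct.mk F F[X] V 1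
    have hψ : ∀ m, ψ (evB 0 m) = (LinearMap.range t).mkQ (I.mkQ m) := fun m => by
      obtain ⟨m', hm⟩ := exists_X m
      conv_rhs => rw [hm, map_add, map_add]
      rw [show (LinearMap.range t).mkQ (I.mkQ ((X : F[X]) • m')) = 0 from
        (Submodule.Quotient.mk_eq_zero _).2 ⟨I.mkQ m', rfl⟩, add_zero]
      rfl
    exact ⟨(LinearMap.range (Y0 ^ (p - 1))).liftQ ψ (by
      rintro _ ⟨v, rfl⟩
      rw [LinearMap.mem_ker, ← evB_one (0 : Module.End F V) v, ← hev0, hψ,
        show I.mkQ (Φ (1 ⊗ₜ v)) = 0 from (Submodule.Quotient.mk_eq_zero _).2 ⟨_, rfl⟩, map_zero]), fun x => by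
      obtain ⟨x, rfl⟩ := Submodule.mkQ_surjective _ x
      obtain ⟨x, rfl⟩ := I.mkQ_surjective x
      exact ⟨Submodule.Quotient.mk (evB 0 x), hψ x⟩⟩
  -- (iii)
  have h3 : ∃ f : ((_ ⧸ I) ⧸ LinearMap.range (t - β)) →ₗ[F] V ⧸ LinearMap.range ((Y0 + Z * B) ^ (p - 1)),
      Function.Surjective f := by
    let χ : (_ ⧸ I) →ₗ[F] V ⧸ LinearMap.range ((Y0 + Z * B) ^ (p - 1)) :=
      I.liftQ ((LinearMap.range _).mkQ ∘ₗ evB B) (by
        rintro _ ⟨m, rfl⟩
        exact (Submodule.Quotient.mk_eq_zero _).2 ⟨evB B m, (hev B h0B hZB _ m).symm⟩)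
    exact ⟨(LinearMap.range (t - β)).liftQ χ (by
      rintro _ ⟨x, rfl⟩
      obtain ⟨x, rfl⟩ := I.mkQ_surjective x
      show (LinearMap.range _).mkQ (evB B ((X : F[X]) • x - B.baseChange F[X] x)) = 0
      rw [map_sub, evB_X, evB_bc (Commute.refl B), sub_self, map_zero]), fun x => by
      obtain ⟨v, rfl⟩ := Submodule.mkQ_surjective _ x
      exact ⟨Submodule.Quotient.mk (I.mkQ (1 ⊗ₜ v)), congrArg (LinearMap.range _).mkQ (evB_one B v)⟩⟩
  obtain ⟨f2, h2⟩ := h2
  obtain ⟨f3, h3⟩ := h3
  have h4 := LinearMap.lift_rank_le_of_surjective f3 h3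
  rw [key] at h4
  replace h4 := Cardinal.lift_le.1 (h4.trans (LinearMap.lift_rank_le_of_surjective f2 h2))
  rw [← finrank_eq_rank, ← finrank_eq_rank, Nat.cast_le] at h4
  have h5 := Submodule.finrank_quotient_add_finrank (LinearMap.range ((Y0 + Z * B) ^ (p - 1)))
  have h6 := Submodule.finrank_quotient_add_finrank (LinearMap.range (Y0 ^ (p - 1)))
  omega

end DEF

end CfsgLib.DGN
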