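import Cfsg.Agent.Lib.DGN.AC4
import Cfsg.Agent.Lib.DGN.Def

/-! # DGN / AC: the main linear algebra theorem -/

namespace CfsgLib.DGN

open Module Matrix

variable {k : Type*} [Field k] {p : ℕ} [hp : Fact p.Prime] [CharP k p]

theorem ac {Q : Type*} [Group Q] [Finite Q] (hQ : ∀ u v : Q, u * v = v * u)
    {Γ : Type*} [Group Γ] [Finite Γ] {Ω : Type*} [Fintype Ω] [DecidableEq Ω]
    (π : Q → Equiv.Perm Ω) (hπc : ∀ u v, Commute (π u) (π v)) (hπ : ∀ u, π u ^ p = 1)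
    {m : Type*} [Fintype m] [DecidableEq m] (s : Q →* Matrix m m k) (hs : ∀ u, s u ^ p = 1)
    (act : Γ →* Equiv.Perm Q) (τ : Γ →* Matrix m m k)
    (hτ : ∀ g u, τ g * s u = s (act g u) * τ g)
    (α : (Ω → k) →ₗ[k] Matrix m m k) (β : Matrix m m k →ₗ[k] (Ω → k))
    (hα : ∀ u f, α (fun ω => f (π u ω)) = s u * α f * s u⁻¹)
    (hβ : ∀ u M ω, β (s u * M * s u⁻¹) ω = β M (π u ω))
    (hαβ : ∀ M, α (β M) = M)
    (hfix : ∀ ω, (∀ u, π u ω = ω) → ∃ a : k, α (Pi.single ω 1) = a • 1)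
    (hω : ∃ ω0, (∀ u, π u ω0 = ω0) ∧ β 1 ω0 ≠ 0) :
    ∃ μ : Γ →* kˣ, ∀ g (a : k), act g = 1 → τ g = a • 1 → (μ g : k) = a := by
  refine ac_of_def hQ π hπc hπ s hs act τ hτ α β hα hβ hαβ hfix hω ?_
  have : CharP (FractionRing (MvPolynomial Q k)) p := gen_charP k Q _
  intro Y0 Z B h1 h2 h3 h4 h5 h6 h7
  exact (def_rank p Y0 Z B h1 h2 h3 h4 h5 h6 h7).ge

end CfsgLib.DGN
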