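import Cfsg.Agent.Lib.DGN.T1

/-!
# DGN / AC1: base change, the rank count and the deformation step of AC
-/

namespace CfsgLib.DGN

open Module Matrix

section BaseChange

variable {k K : Type*} [Field k] [Field K] [Algebra k K]
  {W : Type*} [AddCommGroup W] [Module K W] [Module k W] [IsScalarTower k K W]

theorem ac_exists_ext_pi {Ω : Type*} [Fintype Ω] (α : (Ω → k) →ₗ[k] W) :
    ∃ α' : (Ω → K) →ₗ[K] W, ∀ f : Ω → k, α' (fun ω => algebraMap k K (f ω)) = α f := by
  classical
  refine ⟨(Pi.basisFun K Ω).constr K (fun ω => α (Pi.single ω 1)), fun f => ?_⟩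
  rw [Module.Basis.constr_apply_fintype]
  conv_rhs => rw [pi_eq_sum_univ' f, map_sum]
  refine Finset.sum_congr rfl fun ω _ => ?_
  rw [map_smul]
  simp

omit [Module k W] [IsScalarTower k K W] in
theorem ac_ext_pi {Ω : Type*} [Fintype Ω] {F G : (Ω → K) →ₗ[K] W}
    (h : ∀ f : Ω → k, F (fun ω => algebraMap k K (f ω)) = G (fun ω => algebraMap k K (f ω))) :
    F = G := by
  classical
  refine (Pi.basisFun K Ω).ext fun ω => ?_
  have : (Pi.basisFun K Ω) ω = fun ω' => algebraMap k K ((Pi.single ω (1 : k) : Ω → k) ω') := by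
    ext ω'
    by_cases h : ω' = ω
    · subst h; simp
    · simp [h]
  rw [this, h]

theorem ac_exists_ext_mat {m : Type*} [Fintype m] (β : Matrix m m k →ₗ[k] W) :
    ∃ β' : Matrix m m K →ₗ[K] W, ∀ M : Matrix m m k, β' (M.map (algebraMap k K)) = β M := by
  obtain ⟨β', hβ'⟩ := ac_exists_ext_pi (K := K) (β ∘ₗ ((LinearEquiv.curry k k m m).trans
    (Matrix.ofLinearEquiv k)).toLinearMap)
  refine ⟨β' ∘ₗ ((LinearEquiv.curry K K m m).trans (Matrix.ofLinearEquiv K)).symm.toLinearMap,
    fun M => ?_⟩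
  exact hβ' (fun x => M x.1 x.2)

omit [Module k W] [IsScalarTower k K W] in
theorem ac_ext_mat {m : Type*} [Fintype m] {F G : Matrix m m K →ₗ[K] W}
    (h : ∀ M : Matrix m m k, F (M.map (algebraMap k K)) = G (M.map (algebraMap k K))) :
    F = G := by
  have : F ∘ₗ ((LinearEquiv.curry K K m m).trans (Matrix.ofLinearEquiv K)).toLinearMap =
      G ∘ₗ ((LinearEquiv.curry K K m m).trans (Matrix.ofLinearEquiv K)).toLinearMap :=
    ac_ext_pi (k := k) fun f => h (Matrix.of fun i j => f (i, j))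
  exact (LinearMap.cancel_right (LinearEquiv.surjective _)).1 this

end BaseChange

section Deform

variable {K : Type*} [Field K] {p : ℕ} [hp : Fact p.Prime] [CharP K p]
  {E : Type*} [AddCommGroup E] [Module K E] [FiniteDimensional K E]

/-- the iterated deformation step: `DEF` is the hypothesis `hdef`. -/
theorem ac_deform (A : Subalgebra K (Module.End K E)) (hc : ∀ a ∈ A, ∀ b ∈ A, Commute a b)
    (hdef : ∀ Y0 Z B : Module.End K E, Commute Y0 Z → Commute Y0 B → Commute Z B →
      Y0 ^ p = 0 → Z ^ p = 0 → IsNilpotent B →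
      finrank K E < p * (finrank K ↥(LinearMap.range (Y0 ^ (p - 1))) + 1) →
      finrank K ↥(LinearMap.range (Y0 ^ (p - 1))) ≤
        finrank K ↥(LinearMap.range ((Y0 + Z * B) ^ (p - 1))))
    {ι : Type*} (S : Finset ι) (z b : ι → Module.End K E) (hzA : ∀ i, z i ∈ A)
    (hbA : ∀ i, b i ∈ A) (hz : ∀ i, z i ^ p = 0)
    (hb : ∀ i, b i ^ p = 0) (y : Module.End K E) (hyA : y ∈ A) (hy : y ^ p = 0)
    (h : finrank K E = p * finrank K ↥(LinearMap.range (y ^ (p - 1))) + 1) :
    (y + ∑ i ∈ S, z i * b i) ^ p = 0 ∧ finrank K E =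
      p * finrank K ↥(LinearMap.range ((y + ∑ i ∈ S, z i * b i) ^ (p - 1))) + 1 := by
  classical
  have hp1 := hp.out.one_lt
  have hnt : Nontrivial (Module.End K E) := by
    have : Nontrivial E := Module.nontrivial_of_finrank_pos (R := K) (by omega)
    infer_instance
  have : CharP (Module.End K E) p := charP_of_injective_algebraMap
    (algebraMap K (Module.End K E)).injective p
  induction S using Finset.induction_on with
  | empty =>
    rw [Finset.sum_empty, add_zero]
    exact ⟨hy, h⟩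
  | insert i S hi ih =>
    obtain ⟨ih1, ih2⟩ := ih
    have e : y + ∑ j ∈ insert i S, z j * b j = (y + ∑ j ∈ S, z j * b j) + z i * b i := by
      rw [Finset.sum_insert hi]
      abel
    have hA : y + ∑ j ∈ S, z j * b j ∈ A :=
      A.add_mem hyA (A.sum_mem fun j _ => A.mul_mem (hzA j) (hbA j))
    have h1 : ((y + ∑ j ∈ S, z j * b j) + z i * b i) ^ p = 0 := by
      rw [add_pow_char_of_commute p (hc _ hA _ (A.mul_mem (hzA i) (hbA i))), ih1,
        (hc _ (hzA i) _ (hbA i)).mul_pow, hz, zero_mul, add_zero]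
    have h2 := hdef _ _ _ (hc _ hA _ (hzA i)) (hc _ hA _ (hbA i)) (hc _ (hzA i) _ (hbA i)) ih1
      (hz i) ⟨p, hb i⟩ (by rw [ih2, mul_add]; omega)
    have h3 := n1a _ h1
    rw [e]
    refine ⟨h1, ?_⟩
    set r := finrank K ↥(LinearMap.range ((y + ∑ j ∈ S, z j * b j) ^ (p - 1)))
    set r' := finrank K ↥(LinearMap.range
      (((y + ∑ j ∈ S, z j * b j) + z i * b i) ^ (p - 1)))
    have h4 : r' ≤ r := by
      by_contra hcon
      have : p * (r + 1) ≤ p * r' := Nat.mul_le_mul_left _ (by omega)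
      rw [mul_add] at this
      omega
    rw [ih2, le_antisymm h4 h2]

end Deform

end CfsgLib.DGN
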