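import Cfsg.Agent.Lib.DGN.AC1

/-!
# DGN / AC2: the rank count `m² = p r + 1` and the cocycle of AC
-/

namespace CfsgLib.DGN

open Module Matrix

section Count

variable {K : Type*} [Field K] {p : ℕ} {Q : Type*} [Fintype Q] {Ω : Type*} [Fintype Ω]
  [DecidableEq Ω] {E : Type*} [AddCommGroup E] [Module K E] [FiniteDimensional K E]

theorem ac_count (hp : 1 < p) (Fix : Ω → Prop) (c : Q → K) (P : Q → Module.End K (Ω → K))
    (hP1 : ∀ u f ω, Fix ω → P u f ω = f ω)
    (hP2 : ∀ u ω, Fix ω → P u (Pi.single ω 1) = Pi.single ω 1)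
    (D : Q → Module.End K E) (α : (Ω → K) →ₗ[K] E) (β : E →ₗ[K] (Ω → K)) (one : E)
    (hα : ∀ u f, α (P u f) = D u (α f)) (hβ : ∀ u M, β (D u M) = P u (β M))
    (hαβ : ∀ M, α (β M) = M)
    (hfix : ∀ ω, Fix ω → α (Pi.single ω 1) ∈ Submodule.span K {one})
    (hω : ∃ ω0, Fix ω0 ∧ β one ω0 ≠ 0) (hone : ∀ u, D u one = one)
    (hgen : ∀ f : Ω → K, (∑ u, c u • (P u - 1) : Module.End K (Ω → K)) f = 0 →
      (∀ ω, Fix ω → f ω = 0) →
      f ∈ LinearMap.range ((∑ u, c u • (P u - 1) : Module.End K (Ω → K)) ^ (p - 1)))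
    (hy : (∑ u, c u • (D u - 1) : Module.End K E) ^ p = 0) :
    finrank K E = p * finrank K ↥(LinearMap.range
      ((∑ u, c u • (D u - 1) : Module.End K E) ^ (p - 1))) + 1 := by
  classical
  set y : Module.End K E := ∑ u, c u • (D u - 1) with hy'
  set z : Module.End K (Ω → K) := ∑ u, c u • (P u - 1) with hz
  have hyapp : ∀ M, y M = ∑ u, c u • (D u M - M) := fun M => by
    simp [hy', LinearMap.sum_apply]
  have hzapp : ∀ f, z f = ∑ u, c u • (P u f - f) := fun f => by
    simp [hz, LinearMap.sum_apply]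
  have hαz : ∀ f, α (z f) = y (α f) := fun f => by
    rw [hyapp, hzapp, map_sum]
    exact Finset.sum_congr rfl fun u _ => by rw [map_smul, map_sub, hα]
  have hβy : ∀ M, β (y M) = z (β M) := fun M => by
    rw [hyapp, hzapp, map_sum]
    exact Finset.sum_congr rfl fun u _ => by rw [map_smul, map_sub, hβ]
  have hαpow : ∀ (i : ℕ) f, α ((z ^ i) f) = (y ^ i) (α f) := by
    intro i
    induction i with
    | zero => simp
    | succ i ih => intro f; rw [pow_succ, Module.End.mul_apply, ih, hαz, pow_succ]; rfl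
  refine n1c y hp hy (v := one) ?_ ?_ ?_
  · rw [hyapp]
    simp [hone]
  · rintro ⟨M, hM⟩
    obtain ⟨ω0, h0, h1⟩ := hω
    apply h1
    rw [← hM, hβy, hzapp, Finset.sum_apply]
    refine Finset.sum_eq_zero fun u _ => ?_
    simp [hP1 u _ ω0 h0]
  · intro M hM
    have hM' : z (β M) = 0 := by rw [← hβy, LinearMap.mem_ker.1 hM, map_zero]
    set f0 : Ω → K := ∑ ω ∈ Finset.univ.filter Fix, β M ω • (Pi.single ω 1 : Ω → K) with hf0
    have hzf0 : z f0 = 0 := by
      rw [hf0, map_sum]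
      refine Finset.sum_eq_zero fun ω hω' => ?_
      rw [map_smul, hzapp, Finset.sum_eq_zero, smul_zero]
      intro u _
      rw [hP2 u ω (Finset.mem_filter.1 hω').2, sub_self, smul_zero]
    obtain ⟨g, hg⟩ := hgen (β M - f0) (by rw [map_sub, hM', hzf0, sub_zero]) (fun ω hω' => by
      rw [Pi.sub_apply, hf0, Finset.sum_apply, Finset.sum_eq_single ω]
      · simp
      · intro b _ hb
        simp [Pi.single_eq_of_ne hb.symm]
      · intro hh
        exact absurd (Finset.mem_filter.2 ⟨Finset.mem_univ _, hω'⟩) hh)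
    have hM2 : M = α f0 + (y ^ (p - 1)) (α g) := by
      rw [← hαpow, hg, ← map_add, add_sub_cancel, hαβ]
    rw [hM2]
    refine Submodule.add_mem_sup ?_ ⟨_, rfl⟩
    rw [hf0, map_sum]
    refine Submodule.sum_mem _ fun ω hω' => ?_
    rw [map_smul]
    exact Submodule.smul_mem _ _ (hfix ω (Finset.mem_filter.1 hω').2)

end Count

section Cocycle

variable {K : Type*} [Field K] {Γ : Type*} [Group Γ] {V : Type*} [AddCommGroup V] [Module K V]

theorem ac_cocycle (X N : Module.End K V) (v0 : V) (σ : Γ → K →+* K) (T : Γ → V →+ V)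
    (hT : ∀ g a v, T g (a • v) = σ g a • T g v) (hmul : ∀ g h v, T (g * h) v = T g (T h v))
    (hone : ∀ v, T 1 v = v) (hX : ∀ g v, T g (X v) = X (T g v))
    (hN : ∀ g v, T g (N v) = N (T g v)) (h0 : X v0 = 0) (h1 : ∀ w, N w ≠ v0)
    (h2 : ∀ v, X v = 0 → ∃ (a : K) (w : V), v = a • v0 + N w) :
    ∃ f : Γ → K, (∀ g, f g ≠ 0) ∧ (∀ g h, f (g * h) = f g * σ g (f h)) ∧
      ∀ g (a : K), T g v0 = a • v0 → f g = a := by
  have huniq : ∀ (a a' : K) (w w' : V), a • v0 + N w = a' • v0 + N w' → a = a' := by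
    intro a a' w w' h
    by_contra hne
    have hs : a - a' ≠ 0 := sub_ne_zero.2 hne
    apply h1 ((a - a')⁻¹ • (w' - w))
    have : N (w' - w) = (a - a') • v0 := by
      rw [map_sub, sub_smul, sub_eq_sub_iff_add_eq_add, add_comm (N w'), ← h]
    rw [map_smul, this, smul_smul, inv_mul_cancel₀ hs, one_smul]
  have hex : ∀ g, ∃ (a : K) (w : V), T g v0 = a • v0 + N w := fun g =>
    h2 _ (by rw [← hX, h0, map_zero])
  choose f w hf using hex
  have hcoc : ∀ g h, f (g * h) = f g * σ g (f h) := by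
    intro g h
    refine huniq _ _ (w (g * h)) (σ g (f h) • w g + T g (w h)) ?_
    rw [← hf, hmul, hf h, map_add, hT, hN, hf g, map_add, map_smul, smul_add, smul_smul,
      mul_comm (f g), add_assoc]
  have hf1 : f 1 = 1 := huniq _ _ (w 1) 0 (by rw [← hf, hone, one_smul, map_zero, add_zero])
  have hne : ∀ g, f g ≠ 0 := by
    intro g hg
    have := hcoc g g⁻¹
    rw [mul_inv_cancel, hf1, hg, zero_mul] at this
    exact one_ne_zero this
  refine ⟨f, hne, hcoc, fun g a ha => ?_⟩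
  exact huniq (f g) _ (w g) 0 (by rw [← hf, ha, map_zero, add_zero])

end Cocycle

end CfsgLib.DGN
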