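import Cfsg.Agent.Lib.DGN.AC2
import Cfsg.Agent.Lib.DGN.Gen

/-!
# DGN / AC3: the vector `v0` for the generic element `X = ∑ c u (S u - 1)`
-/

namespace CfsgLib.DGN

open Module Matrix

variable {K : Type*} [Field K] {p : ℕ} [hp : Fact p.Prime] [CharP K p]

omit hp in
theorem ac_end_natCast {E : Type*} [AddCommGroup E] [Module K E] :
    ((p : ℕ) : Module.End K E) = 0 := by
  rw [← map_natCast (algebraMap K (Module.End K E)), CharP.cast_eq_zero, map_zero]

theorem ac_generic {Q : Type*} [Group Q] [Fintype Q] (hQ : ∀ u v : Q, u * v = v * u)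
    {m : Type*} [Fintype m] [DecidableEq m] (S : Q →* Matrix m m K) (hS : ∀ u, S u ^ p = 1)
    (c : Q → K)
    (hdef : ∀ Y0 Z B : Module.End K (Matrix m m K), Commute Y0 Z → Commute Y0 B → Commute Z B →
      Y0 ^ p = 0 → Z ^ p = 0 → IsNilpotent B →
      finrank K (Matrix m m K) < p * (finrank K ↥(LinearMap.range (Y0 ^ (p - 1))) + 1) →
      finrank K ↥(LinearMap.range (Y0 ^ (p - 1))) ≤
        finrank K ↥(LinearMap.range ((Y0 + Z * B) ^ (p - 1))))
    (hcount : (∑ u, c u • (LinearMap.mulLeft K (S u) * LinearMap.mulRight K (S u⁻¹) - 1) :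
        Module.End K (Matrix m m K)) ^ p = 0 →
      finrank K (Matrix m m K) = p * finrank K ↥(LinearMap.range
        ((∑ u, c u • (LinearMap.mulLeft K (S u) * LinearMap.mulRight K (S u⁻¹) - 1) :
          Module.End K (Matrix m m K)) ^ (p - 1))) + 1) :
    ∃ v0 : m → K, (∑ u, c u • (S u - 1)) *ᵥ v0 = 0 ∧
      (∀ w, (∑ u, c u • (S u - 1)) ^ (p - 1) *ᵥ w ≠ v0) ∧
      ∀ v, (∑ u, c u • (S u - 1)) *ᵥ v = 0 →
        ∃ (a : K) (w : m → K), v = a • v0 + (∑ u, c u • (S u - 1)) ^ (p - 1) *ᵥ w := by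
  classical
  have hSc : ∀ u v, Commute (S u) (S v) := fun u v => by
    rw [Commute, SemiconjBy, ← map_mul, ← map_mul, hQ]
  let L : Q → Module.End K (Matrix m m K) := fun u => LinearMap.mulLeft K (S u)
  let R : Q → Module.End K (Matrix m m K) := fun u => LinearMap.mulRight K (S u)
  have hLL : ∀ u v, Commute (L u) (L v) := fun u v => LinearMap.ext fun M => by
    simp only [L, Module.End.mul_apply, LinearMap.mulLeft_apply, ← mul_assoc, (hSc u v).eq]
  have hRR : ∀ u v, Commute (R u) (R v) := fun u v => LinearMap.ext fun M => by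
    simp only [R, Module.End.mul_apply, LinearMap.mulRight_apply, mul_assoc, (hSc u v).eq]
  have hLR : ∀ u v, Commute (L u) (R v) := fun u v => LinearMap.commute_mulLeft_right _ _
  let A : Subalgebra K (Module.End K (Matrix m m K)) := Algebra.adjoin K (Set.range L ∪ Set.range R)
  have hgen : ∀ a ∈ Set.range L ∪ Set.range R, ∀ b ∈ Set.range L ∪ Set.range R, Commute a b := by
    rintro _ (⟨u, rfl⟩ | ⟨u, rfl⟩) _ (⟨v, rfl⟩ | ⟨v, rfl⟩)
    exacts [hLL u v, hLR u v, (hLR v u).symm, hRR u v]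
  have hc : ∀ a ∈ A, ∀ b ∈ A, Commute a b := fun a ha b hb =>
    Algebra.commute_of_mem_adjoin_of_forall_mem_commute hb fun x hx =>
      (Algebra.commute_of_mem_adjoin_of_forall_mem_commute ha fun x' hx' => hgen x hx x' hx').symm
  have hLA : ∀ u, L u ∈ A := fun u => Algebra.subset_adjoin (Or.inl ⟨u, rfl⟩)
  have hRA : ∀ u, R u ∈ A := fun u => Algebra.subset_adjoin (Or.inr ⟨u, rfl⟩)
  have hLp : ∀ u, L u ^ p = 1 := fun u => by
    simp only [L]; rw [LinearMap.pow_mulLeft, hS, LinearMap.mulLeft_one]; rfl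
  have hRp : ∀ u, R u ^ p = 1 := fun u => by
    simp only [R]; rw [LinearMap.pow_mulRight, hS, LinearMap.mulRight_one]; rfl
  have hzA : ∀ u, c u • (L u * R u⁻¹ - 1) ∈ A := fun u =>
    A.smul_mem (A.sub_mem (A.mul_mem (hLA u) (hRA _)) A.one_mem) _
  have hz : ∀ u, (c u • (L u * R u⁻¹ - 1)) ^ p = 0 := fun u => by
    rw [smul_pow, gen_sub_one_pow hp.out ac_end_natCast
      (by rw [(hLR _ _).mul_pow, hLp, hRp, one_mul]), smul_zero]
  have hy : (∑ u, c u • (L u * R u⁻¹ - 1)) ^ p = 0 :=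
    gen_sum_pow hp.out ac_end_natCast _ _ (fun u v => hc _ (hzA u) _ (hzA v)) hz
  obtain ⟨-, h2⟩ := ac_deform A hc hdef Finset.univ (fun u => c u • (L u * R u⁻¹ - 1))
    (fun u => R u - 1) hzA (fun u => A.sub_mem (hRA u) A.one_mem) hz
    (fun u => gen_sub_one_pow hp.out ac_end_natCast (hRp u)) _
    (A.sum_mem fun u _ => hzA u) hy (hcount hy)
  have e : ∑ u, c u • (L u * R u⁻¹ - 1) + ∑ u, c u • (L u * R u⁻¹ - 1) * (R u - 1) =
      LinearMap.mulLeft K (∑ u, c u • (S u - 1)) - LinearMap.mulRight K (∑ u, c u • (S u - 1)) := by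
    refine LinearMap.ext fun M => ?_
    simp only [L, R, LinearMap.add_apply, LinearMap.sum_apply, LinearMap.smul_apply,
      LinearMap.sub_apply, Module.End.mul_apply, LinearMap.mulLeft_apply,
      LinearMap.mulRight_apply, Module.End.one_apply, Finset.sum_mul, Finset.mul_sum]
    rw [← Finset.sum_add_distrib, ← Finset.sum_sub_distrib]
    refine Finset.sum_congr rfl fun u _ => ?_
    have h1 : M * S u * S u⁻¹ = M := by rw [mul_assoc, ← map_mul, mul_inv_cancel, map_one, mul_one]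
    rw [sub_mul, h1, smul_mul_assoc, mul_smul_comm, ← smul_add, ← smul_sub]
    congr 1
    noncomm_ring
  rw [e] at h2
  have hmat : ((p : ℕ) : Matrix m m K) = 0 := by
    rw [← map_natCast (algebraMap K (Matrix m m K)), CharP.cast_eq_zero, map_zero]
  refine t1 _ (gen_sum_pow hp.out hmat _ _ (fun u v => ?_) fun u => ?_) h2
  · exact (((hSc u v).sub_left (Commute.one_left _)).sub_right
      (Commute.one_right _)).smul_left _ |>.smul_right _
  · rw [smul_pow, gen_sub_one_pow hp.out hmat (hS u), smul_zero]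

end CfsgLib.DGN
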