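import Mathlib

/-!
# DGN / DIV: descent of multiplicative cocycles over a rational function field

`Γ` finite acting on `K = Frac (MvPolynomial ι k)` by permuting the variables; every cocycle
`f : Γ → Kˣ` is cohomologous to a homomorphism `Γ →* kˣ`.
-/

set_option linter.unusedSectionVars false

namespace CfsgLib.DGN

section UFD

variable {R : Type*} [CommRing R] [IsDomain R] [UniqueFactorizationMonoid R]

/-- a gcd of a finite family, stable under scaling. -/
theorem div_exists_gcd {Γ : Type*} (s : Finset Γ) (a : Γ → R) :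
    ∃ D : R, (∀ g ∈ s, D ∣ a g) ∧ ∀ c z : R, (∀ g ∈ s, c ∣ z * a g) → c ∣ z * D := by
  classical
  let _ : GCDMonoid R := UniqueFactorizationMonoid.toGCDMonoid R
  induction s using Finset.induction_on with
  | empty => exact ⟨0, by simp, by simp⟩
  | insert g s _ ih =>
    obtain ⟨D, h1, h2⟩ := ih
    refine ⟨gcd (a g) D, ?_, ?_⟩
    · intro x hx
      rcases Finset.mem_insert.1 hx with rfl | hx
      · exact gcd_dvd_left _ _
      · exact (gcd_dvd_right _ _).trans (h1 x hx)
    · intro c z hc
      have h3 : c ∣ gcd (z * a g) (z * D) :=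
        dvd_gcd (hc g (Finset.mem_insert_self _ _))
          (h2 c z fun x hx => hc x (Finset.mem_insert_of_mem hx))
      exact h3.trans (gcd_mul_left' z (a g) D).dvd

variable {K : Type*} [Field K] [Algebra R K] [IsFractionRing R K]

/-- the smallest principal fractional ideal containing a finite family. -/
theorem div_exists_gen {Γ : Type*} [Finite Γ] (f : Γ → K) :
    ∃ γ : K, (∀ g, ∃ r : R, f g = γ * algebraMap R K r) ∧
      ∀ κ : K, (∀ g, ∃ r : R, f g = κ * algebraMap R K r) → ∃ r : R, γ = κ * algebraMap R K r := by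
  classical
  have := Fintype.ofFinite Γ
  obtain ⟨b, hb⟩ := IsLocalization.exist_integer_multiples_of_finite (nonZeroDivisors R) f
  choose a ha using hb
  have hinj : Function.Injective (algebraMap R K) := IsFractionRing.injective R K
  have hb0 : algebraMap R K b ≠ 0 := fun h =>
    nonZeroDivisors.ne_zero b.2 (hinj (by rw [h, map_zero]))
  have ha' : ∀ g, algebraMap R K (a g) = algebraMap R K b * f g := fun g => by
    rw [ha g, Algebra.smul_def]
  obtain ⟨D, h1, h2⟩ := div_exists_gcd Finset.univ a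
  refine ⟨algebraMap R K D / algebraMap R K b, ?_, ?_⟩
  · intro g
    obtain ⟨r, hr⟩ := h1 g (Finset.mem_univ _)
    refine ⟨r, ?_⟩
    have := ha' g
    rw [hr, map_mul] at this
    field_simp
    linear_combination -this
  · intro κ hκ
    obtain ⟨x, z, hz, rfl⟩ := IsFractionRing.div_surjective (A := R) κ
    have hz0 : algebraMap R K z ≠ 0 := fun h =>
      nonZeroDivisors.ne_zero hz (hinj (by rw [h, map_zero]))
    have h3 : ∀ g ∈ (Finset.univ : Finset Γ), (b : R) * x ∣ z * a g := by
      intro g _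
      obtain ⟨r, hr⟩ := hκ g
      refine ⟨r, hinj ?_⟩
      rw [map_mul, map_mul, map_mul, ha', hr]
      field_simp
    obtain ⟨r, hr⟩ := h2 _ _ h3
    refine ⟨r, ?_⟩
    have := congrArg (algebraMap R K) hr
    rw [map_mul, map_mul, map_mul] at this
    field_simp
    linear_combination this

/-- DIV over a UFD: a cocycle is a unit of `R` up to a coboundary. -/
theorem div_ufd {Γ : Type*} [Group Γ] [Finite Γ] (σ : Γ →* (K ≃+* K))
    (hσ : ∀ g (r : R), ∃ r' : R, σ g (algebraMap R K r) = algebraMap R K r')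
    (f : Γ → K) (hf0 : ∀ g, f g ≠ 0) (hf : ∀ g h, f (g * h) = f g * σ g (f h)) :
    ∃ γ : K, γ ≠ 0 ∧ ∀ g, ∃ r : R, IsUnit r ∧ f g * σ g γ = algebraMap R K r * γ := by
  have hinj : Function.Injective (algebraMap R K) := IsFractionRing.injective R K
  obtain ⟨γ, h1, h2⟩ := div_exists_gen (R := R) f
  have hγ : γ ≠ 0 := by
    obtain ⟨r, hr⟩ := h1 1
    intro h0
    exact hf0 1 (by rw [hr, h0, zero_mul])
  have hf1 : f 1 = 1 := by
    have := hf 1 1
    rw [mul_one, map_one] at this
    have h3 : f 1 * f 1 = f 1 * 1 := by rw [mul_one]; exact this.symm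
    exact mul_left_cancel₀ (hf0 1) h3
  have key : ∀ h, ∃ r : R, γ = (f h * σ h γ) * algebraMap R K r := by
    intro h
    refine h2 _ fun g => ?_
    obtain ⟨r, hr⟩ := h1 (h⁻¹ * g)
    obtain ⟨r', hr'⟩ := hσ h r
    refine ⟨r', ?_⟩
    have := hf h (h⁻¹ * g)
    rw [mul_inv_cancel_left, hr, map_mul, hr'] at this
    rw [this, mul_assoc]
  refine ⟨γ, hγ, fun h => ?_⟩
  obtain ⟨r, hr⟩ := key h
  obtain ⟨s, hs⟩ := key h⁻¹
  obtain ⟨s', hs'⟩ := hσ h s
  have e1 : σ h (σ h⁻¹ γ) = γ := by
    have : σ h * σ h⁻¹ = 1 := by rw [← map_mul, mul_inv_cancel, map_one]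
    exact congrArg (fun e : K ≃+* K => e γ) this
  have e2 : f h * σ h (f h⁻¹) = 1 := by rw [← hf, mul_inv_cancel, hf1]
  have e3 : f h * σ h γ = algebraMap R K s' * γ := by
    have := congrArg (σ h) hs
    rw [map_mul, map_mul, e1, hs'] at this
    rw [this]
    linear_combination (γ * algebraMap R K s') * e2
  refine ⟨s', ?_, e3⟩
  rw [e3] at hr
  have e4 : algebraMap R K (s' * r) = algebraMap R K 1 := by
    rw [map_mul, map_one]
    refine mul_left_cancel₀ hγ ?_
    linear_combination -hr
  exact IsUnit.of_mul_eq_one r (hinj e4)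

end UFD

section Mv

open MvPolynomial

variable {k : Type*} [Field k] {ι : Type*} {K : Type*} [Field K] [Algebra (MvPolynomial ι k) K]
  [IsFractionRing (MvPolynomial ι k) K] {Γ : Type*} [Group Γ]

/-- permuting the variables, as a homomorphism to the ring automorphisms. -/
noncomputable def divRename (k : Type*) [Field k] (act : Γ →* Equiv.Perm ι) :
    Γ →* (MvPolynomial ι k ≃+* MvPolynomial ι k) where
  toFun g := (renameEquiv k (act g)).toRingEquiv
  map_one' := by
    ext1 r
    simp
  map_mul' g h := by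
    ext1 r
    simp [rename_rename]

/-- the action of `Γ` on the fraction field `K` induced by permuting the variables. -/
theorem div_exists_act (k : Type*) [Field k] (K : Type*) [Field K] [Algebra (MvPolynomial ι k) K]
    [IsFractionRing (MvPolynomial ι k) K] (act : Γ →* Equiv.Perm ι) :
    ∃ σ : Γ →* (K ≃+* K), ∀ g (r : MvPolynomial ι k),
      σ g (algebraMap (MvPolynomial ι k) K r) =
        algebraMap (MvPolynomial ι k) K (rename (act g) r) := by
  refine ⟨(IsFractionRing.ringEquivOfRingEquivHom (MvPolynomial ι k) K).comp (divRename k act),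
    fun g r => ?_⟩
  simp [IsFractionRing.ringEquivOfRingEquivHom_apply, divRename]

/-- an element acting trivially on the variables acts trivially on `K`. -/
theorem div_act_eq_self (act : Γ →* Equiv.Perm ι) (σ : Γ →* (K ≃+* K))
    (hσ : ∀ g (r : MvPolynomial ι k), σ g (algebraMap (MvPolynomial ι k) K r) =
      algebraMap (MvPolynomial ι k) K (rename (act g) r)) {g : Γ} (hg : act g = 1) (x : K) :
    σ g x = x := by
  obtain ⟨a, b, _, rfl⟩ := IsFractionRing.div_surjective (A := MvPolynomial ι k) x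
  rw [map_div₀, hσ, hσ, hg]
  simp

/-- **DIV**: a cocycle `f : Γ → Kˣ` is `μ g · γ / g γ` with `μ : Γ →* kˣ`. -/
theorem div [Finite Γ] (act : Γ →* Equiv.Perm ι) (σ : Γ →* (K ≃+* K))
    (hσ : ∀ g (r : MvPolynomial ι k), σ g (algebraMap (MvPolynomial ι k) K r) =
      algebraMap (MvPolynomial ι k) K (rename (act g) r))
    (f : Γ → K) (hf0 : ∀ g, f g ≠ 0) (hf : ∀ g h, f (g * h) = f g * σ g (f h)) :
    ∃ (μ : Γ →* kˣ) (γ : K), γ ≠ 0 ∧
      ∀ g, f g * σ g γ = algebraMap (MvPolynomial ι k) K (C (μ g : k)) * γ := by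
  have hinj : Function.Injective (algebraMap (MvPolynomial ι k) K) := IsFractionRing.injective _ K
  obtain ⟨γ, hγ, h⟩ := div_ufd (R := MvPolynomial ι k) σ (fun g r => ⟨_, hσ g r⟩) f hf0 hf
  have h' : ∀ g, ∃ a : kˣ, f g * σ g γ = algebraMap (MvPolynomial ι k) K (C (a : k)) * γ := by
    intro g
    obtain ⟨r, hr, e⟩ := h g
    obtain ⟨a, ha, rfl⟩ := isUnit_iff_eq_C_of_isReduced.1 hr
    obtain ⟨a, rfl⟩ := ha
    exact ⟨a, e⟩
  choose m hm using h'
  have hmul : ∀ g h, m (g * h) = m g * m h := by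
    intro g h
    have e1 : σ (g * h) γ = σ g (σ h γ) := by rw [map_mul]; rfl
    have e2 := congrArg (σ g) (hm h)
    rw [map_mul, map_mul, hσ, rename_C] at e2
    have e3 := hm (g * h)
    rw [hf, e1, mul_assoc, e2] at e3
    have e4 : algebraMap (MvPolynomial ι k) K (C (m (g * h) : k)) =
        algebraMap (MvPolynomial ι k) K (C ((m g : k) * m h)) := by
      refine mul_right_cancel₀ hγ ?_
      rw [C_mul, map_mul, ← e3]
      linear_combination (algebraMap (MvPolynomial ι k) K (C (m h : k))) * hm g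
    exact Units.ext (C_injective ι k (hinj e4))
  exact ⟨MonoidHom.mk' m hmul, γ, hγ, hm⟩

/-- **DIV**, the form used in AC: on the elements acting trivially, `f = μ`. -/
theorem div' [Finite Γ] (act : Γ →* Equiv.Perm ι) (σ : Γ →* (K ≃+* K))
    (hσ : ∀ g (r : MvPolynomial ι k), σ g (algebraMap (MvPolynomial ι k) K r) =
      algebraMap (MvPolynomial ι k) K (rename (act g) r))
    (f : Γ → K) (hf0 : ∀ g, f g ≠ 0) (hf : ∀ g h, f (g * h) = f g * σ g (f h)) :
    ∃ μ : Γ →* kˣ, ∀ g, act g = 1 → f g = algebraMap (MvPolynomial ι k) K (C (μ g : k)) := by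
  obtain ⟨μ, γ, hγ, h⟩ := div act σ hσ f hf0 hf
  refine ⟨μ, fun g hg => ?_⟩
  have := h g
  rw [div_act_eq_self act σ hσ hg] at this
  exact mul_right_cancel₀ hγ this

end Mv

end CfsgLib.DGN
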