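import Cfsg.Agent.Lib.DGN.AC3
import Cfsg.Agent.Lib.DGN.Div

/-!
# DGN / AC4: the main linear algebra theorem, with the deformation lemma as a hypothesis
-/

namespace CfsgLib.DGN

open Module Matrix MvPolynomial

/-- The deformation lemma `DEF` for the space `E`. -/
def DefStmt (p : ℕ) (K : Type*) [Field K] (E : Type*) [AddCommGroup E] [Module K E] : Prop :=
  ∀ Y0 Z B : Module.End K E, Commute Y0 Z → Commute Y0 B → Commute Z B →
    Y0 ^ p = 0 → Z ^ p = 0 → IsNilpotent B →
    finrank K E < p * (finrank K ↥(LinearMap.range (Y0 ^ (p - 1))) + 1) →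
    finrank K ↥(LinearMap.range (Y0 ^ (p - 1))) ≤
      finrank K ↥(LinearMap.range ((Y0 + Z * B) ^ (p - 1)))

variable {k : Type*} [Field k] {p : ℕ} [hp : Fact p.Prime] [CharP k p]

theorem ac_of_def {Q : Type*} [Group Q] [Finite Q] (hQ : ∀ u v : Q, u * v = v * u)
    {Γ : Type*} [Group Γ] [Finite Γ] {Ω : Type*} [Fintype Ω] [DecidableEq Ω]
    (π : Q → Equiv.Perm Ω) (hπc : ∀ u v, Commute (π u) (π v)) (hπ : ∀ u, π u ^ p = 1)
    {m : Type*} [Fintype m] [DecidableEq m] (s : Q →* Matrix m m k) (hs : ∀ u, s u ^ p = 1)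
    (act : Γ →* Equiv.Perm Q) (τ : Γ →* Matrix m m k)
    (hτ : ∀ g u, τ g * s u = s (act g u) * τ g)
    (α : (Ω → k) →ₗ[k] Matrix m m k) (β : Matrix m m k →ₗ[k] (Ω → k))
    (hα : ∀ u f, α (fun ω => f (π u ω)) = s u * α f * s u⁻¹)
    (hβ : ∀ u M ω, β (s u * M * s u⁻¹) ω = β M (π u ω))
    (hαβ : ∀ M, α (β M) = M)
    (hfix : ∀ ω, (∀ u, π u ω = ω) → ∃ a : k, α (Pi.single ω 1) = a • 1)
    (hω : ∃ ω0, (∀ u, π u ω0 = ω0) ∧ β 1 ω0 ≠ 0)
    (hdef : DefStmt p (FractionRing (MvPolynomial Q k))
      (Matrix m m (FractionRing (MvPolynomial Q k)))) :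
    ∃ μ : Γ →* kˣ, ∀ g (a : k), act g = 1 → τ g = a • 1 → (μ g : k) = a := by
  classical
  have := Fintype.ofFinite Q
  set K := FractionRing (MvPolynomial Q k) with hK
  have : CharP K p := gen_charP k Q K
  have hC : ∀ a : k, algebraMap (MvPolynomial Q k) K (C a) = algebraMap k K a := fun a => by
    rw [IsScalarTower.algebraMap_apply k (MvPolynomial Q k) K]; rfl
  let ι : Matrix m m k →ₐ[k] Matrix m m K := (Algebra.ofId k K).mapMatrix
  have hι : ∀ M : Matrix m m k, M.map (algebraMap k K) = ι M := fun _ => rfl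
  let ιΩ : (Ω → k) →ₗ[k] (Ω → K) := (Algebra.linearMap k K).compLeft Ω
  have hιΩ : ∀ f : Ω → k, (fun ω => algebraMap k K (f ω)) = ιΩ f := fun _ => rfl
  let c : Q → K := fun u => algebraMap (MvPolynomial Q k) K (X u)
  let S : Q →* Matrix m m K := (ι : Matrix m m k →* Matrix m m K).comp s
  have hS : ∀ u, S u = ι (s u) := fun _ => rfl
  obtain ⟨α', hα'⟩ := ac_exists_ext_pi (K := K) (ι.toLinearMap ∘ₗ α)
  obtain ⟨β', hβ'⟩ := ac_exists_ext_mat (K := K) (ιΩ ∘ₗ β)
  simp only [hι, hιΩ, LinearMap.comp_apply, AlgHom.toLinearMap_apply] at hα' hβ'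
  let P : Q → Module.End K (Ω → K) := fun u => LinearMap.funLeft K K (π u)
  let D : Q → Module.End K (Matrix m m K) := fun u =>
    LinearMap.mulLeft K (S u) * LinearMap.mulRight K (S u⁻¹)
  have hD : ∀ u M, D u M = S u * M * S u⁻¹ := fun u M => (mul_assoc _ _ _).symm
  have hP : ∀ u (f : Ω → k), P u (ιΩ f) = ιΩ (fun ω => f (π u ω)) := fun _ _ => rfl
  obtain ⟨v0, h0, h1, h2⟩ := ac_generic (p := p) hQ S
    (fun u => by rw [hS, ← map_pow, hs, map_one]) c hdef (fun hy => by
      refine ac_count hp.out.one_lt (fun ω => ∀ u, π u ω = ω) c P ?_ ?_ D α' β' 1 ?_ ?_ ?_ ?_ ?_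
        ?_ ?_ hy
      · intro u f ω hω'
        change f (π u ω) = f ω
        rw [hω' u]
      · intro u ω hω'
        funext ω'
        change (Pi.single ω 1 : Ω → K) (π u ω') = _
        by_cases h : ω' = ω
        · rw [h, hω' u]
        · rw [Pi.single_eq_of_ne h, Pi.single_eq_of_ne]
          intro h'
          exact h ((π u).injective (h'.trans (hω' u).symm))
      · intro u f
        have : α' ∘ₗ P u = D u ∘ₗ α' := ac_ext_pi (k := k) fun f => by
          simp only [hιΩ, LinearMap.comp_apply]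
          rw [hP, hα', hα', hα, hD, map_mul, map_mul, hS, hS]
        exact LinearMap.congr_fun this f
      · intro u M
        have : β' ∘ₗ D u = P u ∘ₗ β' := ac_ext_mat (k := k) fun M => by
          simp only [hι, LinearMap.comp_apply]
          rw [hD, hS, hS, ← map_mul, ← map_mul, hβ', hβ', hP]
          congr 1
          exact funext fun ω => hβ u M ω
        exact LinearMap.congr_fun this M
      · intro M
        have : α' ∘ₗ β' = LinearMap.id := ac_ext_mat (k := k) fun M => by
          simp only [hι, LinearMap.comp_apply]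
          rw [hβ', hα', hαβ]
          rfl
        exact LinearMap.congr_fun this M
      · intro ω hω'
        obtain ⟨a, ha⟩ := hfix ω hω'
        have e : (Pi.single ω 1 : Ω → K) = ιΩ (Pi.single ω 1) := by
          rw [← hιΩ]
          funext ω'
          by_cases h : ω' = ω
          · subst h; simp
          · simp [h]
        rw [e, hα', ha, map_smul, map_one, ← algebraMap_smul K a]
        exact Submodule.smul_mem _ _ (Submodule.mem_span_singleton_self _)
      · obtain ⟨ω0, h0, h1⟩ := hω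
        refine ⟨ω0, h0, ?_⟩
        rw [← map_one ι, hβ', ← hιΩ]
        exact (map_ne_zero (algebraMap k K)).2 h1
      · intro u
        rw [hD, mul_one, ← map_mul, mul_inv_cancel, map_one]
      · intro f hf hf'
        refine gen' (k := k) π hπc hπ _ (fun f ω => ?_) f hf hf'
        rw [LinearMap.sum_apply, Finset.sum_apply]
        rfl)
  obtain ⟨σ, hσ⟩ := div_exists_act k K act
  have hσk : ∀ g (a : k), σ g (algebraMap k K a) = algebraMap k K a := fun g a => by
    rw [← hC, hσ, rename_C]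
  have hσc : ∀ g u, σ g (c u) = c (act g u) := fun g u => by
    simp only [c]; rw [hσ, rename_X]
  let σM : Γ → Matrix m m K →+* Matrix m m K := fun g => (σ g : K →+* K).mapMatrix
  have hσι : ∀ g M, σM g (ι M) = ι M := fun g M => by
    ext i j
    exact hσk g (M i j)
  have hσs : ∀ g (a : K) M, σM g (a • M) = σ g a • σM g M := fun g a M => by
    ext i j
    simp [σM]
  have hmv : ∀ g (M : Matrix m m K) (v : m → K),
      (fun i => σ g ((M *ᵥ v) i)) = σM g M *ᵥ (fun i => σ g (v i)) := fun g M v =>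
    funext fun i => RingHom.map_mulVec (σ g : K →+* K) M v i
  set Xm : Matrix m m K := ∑ u, c u • (S u - 1) with hXm
  have hX : ∀ g, ι (τ g) * σM g Xm = Xm * ι (τ g) := by
    intro g
    rw [hXm, map_sum, Finset.mul_sum, Finset.sum_mul, ← Equiv.sum_comp (act g)
      (fun u => c u • (S u - 1) * ι (τ g))]
    refine Finset.sum_congr rfl fun u _ => ?_
    rw [hσs, hσc, map_sub, map_one, hS, hσι, mul_smul_comm, smul_mul_assoc, mul_sub, sub_mul,
      ← map_mul, hτ, map_mul, hS, mul_one, one_mul]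
  have hXp : ∀ g (i : ℕ), ι (τ g) * σM g (Xm ^ i) = Xm ^ i * ι (τ g) := by
    intro g i
    induction i with
    | zero => simp
    | succ i ih =>
      rw [pow_succ, map_mul, ← mul_assoc, ih, mul_assoc, hX, mul_assoc]
  let T : Γ → (m → K) →+ (m → K) := fun g =>
    { toFun := fun v => ι (τ g) *ᵥ (fun i => σ g (v i))
      map_zero' := by
        have : (fun i => σ g ((0 : m → K) i)) = 0 := funext fun i => map_zero _
        rw [this, mulVec_zero]
      map_add' := fun v w => by
        rw [← mulVec_add]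
        congr 1
        exact funext fun i => map_add _ _ _ }
  have hT : ∀ g v, T g v = ι (τ g) *ᵥ (fun i => σ g (v i)) := fun _ _ => rfl
  obtain ⟨f, hf0, hf, hf'⟩ := ac_cocycle (Matrix.toLin' Xm) (Matrix.toLin' (Xm ^ (p - 1))) v0
    (fun g => (σ g : K →+* K)) T
    (fun g a v => by
      rw [hT, hT, ← mulVec_smul]
      congr 1
      exact funext fun i => map_mul _ _ _)
    (fun g h v => by
      rw [hT, hT, hT, hmv, hσι, mulVec_mulVec, map_mul, map_mul, map_mul]
      rfl)
    (fun v => by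
      rw [hT, map_one, map_one, map_one, one_mulVec]
      rfl)
    (fun g v => by
      rw [toLin'_apply, toLin'_apply, hT, hT, hmv, mulVec_mulVec, hX, mulVec_mulVec])
    (fun g v => by
      rw [toLin'_apply, toLin'_apply, hT, hT, hmv, mulVec_mulVec, hXp, mulVec_mulVec])
    h0 h1 h2
  obtain ⟨μ, hμ⟩ := div' act σ hσ f hf0 hf
  refine ⟨μ, fun g a hg ha => (algebraMap k K).injective ?_⟩
  rw [← hC, ← hμ g hg]
  refine hf' g _ ?_
  rw [hT, ha, map_smul, map_one, ← algebraMap_smul K a, smul_mulVec, one_mulVec]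
  congr 1
  exact funext fun i => div_act_eq_self act σ hσ hg _

end CfsgLib.DGN
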