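import Cfsg.Agent.Lib.Cover.FongP

/-! # DGN / COEF: an extension `χ` of `θ ∈ Irr N` gives a multiplicative map `X → k[N]`

Proof plan.  `ρ` affords `χ` (so `ρ ∘ ι` is irreducible, of degree `d = θ 1`).  For `T : End V` put
`A T = ofFun fun n => d / |N| * trace (T * ρ (ι n⁻¹)) ∈ ℂ[N]` (linear in `T`).  Reindexing gives
`A (ρ (ι n) * T) = single n 1 * A T`, so `A (ρ_N b * T) = b * A T`; `A 1 = blockIdem {θ}` and
`ρ_N (blockIdem {θ}) = 1`; `ρ_N` is onto (Burnside), hence `ρ_N (A S) = S` and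
`A (S * T) = A S * A T`.  `a x = A (ρ x)` has coefficients `d/|N| * χ (x * (ι n)⁻¹)` in the local
ring; `σ x = redA hM (a x)`.  The third clause is a coefficient computation (`χ` is a class
function) for `a = single n 1`, then linearity. -/

set_option autoImplicit false

namespace CfsgLib.DGN

attribute [local implicit_reducible] CfsgLib.Block.K

open Cfsg MonoidAlgebra CfsgLib.Block
open CfsgLib.BrPair (emb res)

variable {p : ℕ} [Fact p.Prime] {M : Ideal AlgInt}

section four

open LinearMap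

variable {N : Type*} [Group N] [Fintype N] {m : ℕ} (τ : Representation ℂ N (Fin m → ℂ))

theorem coef_trace (X : Module.End ℂ (Fin m → ℂ)) : trace ℂ _ X = ∑ i, X (Pi.single i 1) i := by
  rw [trace_eq_matrix_trace ℂ (Pi.basisFun ℂ (Fin m)), Matrix.trace]
  simp [toMatrix_apply]

theorem coef_avg [τ.IsIrreducible] (hm : (m : ℂ) ≠ 0) (S : Module.End ℂ (Fin m → ℂ)) :
    ∑ n, τ n * S * τ n⁻¹ = ((Nat.card N : ℂ) * trace ℂ _ S / m) • LinearMap.id := by
  obtain ⟨c, hc⟩ := Char.exists_eq_smul_of_comm τ (∑ n, τ n * S * τ n⁻¹) fun g => by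
    rw [← Module.End.mul_eq_comp, ← Module.End.mul_eq_comp, Finset.sum_mul, Finset.mul_sum,
      ← Equiv.sum_comp (Equiv.mulLeft g)]
    refine Finset.sum_congr rfl fun n _ => ?_
    simp only [Equiv.coe_mulLeft, mul_assoc, ← map_mul, mul_inv_rev, inv_mul_cancel, mul_one]
    rw [map_mul, mul_assoc]
  have h := congrArg (trace ℂ _) hc
  rw [map_sum, map_smul, trace_id, Finset.sum_congr rfl fun n _ => show trace ℂ _ (τ n * S * τ n⁻¹) =
    trace ℂ _ S by rw [trace_mul_cycle, ← map_mul, inv_mul_cancel, map_one, one_mul]] at h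
  simp only [Finset.sum_const, Finset.card_univ, nsmul_eq_mul, Module.finrank_fin_fun, smul_eq_mul] at h
  rw [hc, Nat.card_eq_fintype_card, h, mul_div_cancel_right₀ _ hm]

/-- Fourier inversion -/
theorem coef_four [τ.IsIrreducible] (hm : (m : ℂ) ≠ 0) (T : Module.End ℂ (Fin m → ℂ)) :
    ∑ n, ((m : ℂ) * (Nat.card N : ℂ)⁻¹ * trace ℂ _ (T * τ n⁻¹)) • τ n = T := by
  have c0 : (Nat.card N : ℂ) ≠ 0 := Nat.cast_ne_zero.2 Nat.card_pos.ne'
  refine LinearMap.ext fun w => ?_
  have key : ∀ i, ∑ n, τ n⁻¹ (T (Pi.single i 1)) i • τ n w =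
      ((Nat.card N : ℂ) * w i / m) • T (Pi.single i 1) := fun i => by
    have := LinearMap.congr_fun (coef_avg τ hm ((LinearMap.proj i).smulRight w)) (T (Pi.single i 1))
    simpa [LinearMap.sum_apply] using this
  have e : ∀ n, trace ℂ _ (T * τ n⁻¹) = ∑ i, τ n⁻¹ (T (Pi.single i 1)) i := fun n => by
    rw [trace_mul_comm, coef_trace]; rfl
  simp only [LinearMap.sum_apply, LinearMap.smul_apply, e, mul_smul, Finset.sum_smul, ← Finset.smul_sum]
  rw [Finset.sum_comm]
  simp only [key]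
  conv_rhs => rw [pi_eq_sum_univ' w, map_sum]
  rw [Finset.smul_sum, Finset.smul_sum]
  refine Finset.sum_congr rfl fun i _ => ?_
  rw [map_smul, smul_smul, smul_smul]
  congr 1
  field_simp

/-- the element of the group algebra with image `T` -/
noncomputable def coefA (T : Module.End ℂ (Fin m → ℂ)) : ℂ[N] :=
  ofFun fun n => (m : ℂ) * (Nat.card N : ℂ)⁻¹ * trace ℂ _ (T * τ n⁻¹)

theorem coefA_left (n : N) (T : Module.End ℂ (Fin m → ℂ)) : coefA τ (τ n * T) = single n 1 * coefA τ T :=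
  ga_ext fun g => by
    rw [coeff_single_mul', coefA, coefA, coeff_ofFun, coeff_ofFun, one_mul, mul_inv_rev, inv_inv, map_mul τ,
      ← mul_assoc T, trace_mul_cycle _ T]

theorem coefA_right (n : N) (T : Module.End ℂ (Fin m → ℂ)) : coefA τ (T * τ n) = coefA τ T * single n 1 :=
  ga_ext fun g => by
    rw [coeff_mul_single', coefA, coefA, coeff_ofFun, coeff_ofFun, mul_one, mul_inv_rev, inv_inv, map_mul τ,
      mul_assoc T]

theorem coefA_mul [τ.IsIrreducible] (hm : (m : ℂ) ≠ 0) (S T : Module.End ℂ (Fin m → ℂ)) :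
    coefA τ (S * T) = coefA τ S * coefA τ T := by
  refine ga_ext fun g => ?_
  rw [coeff_mul_left]
  conv_lhs => rw [← coef_four τ hm S]
  simp only [coefA, coeff_ofFun, Finset.sum_mul, smul_mul_assoc, map_sum, map_smul, smul_eq_mul, Finset.mul_sum]
  refine Finset.sum_congr rfl fun n _ => ?_
  rw [mul_inv_rev, inv_inv, map_mul τ, ← mul_assoc T, trace_mul_cycle _ T]
  ring

end four

theorem coef (hM : IsPModular p M) {N X : Type*} [Group N] [Finite N] [Group X] [Finite X]
    (hN : (Nat.card N).Coprime p) (ι : N →* X) (c : X → N →* N)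
    (hc : ∀ x n, ι (c x n) = x * ι n * x⁻¹) {χ : X → ℂ} (hχ : IsCharacter X χ)
    (θ : IrrCharacter N) (hθ : ∀ n, χ (ι n) = (θ : N → ℂ) n) :
    ∃ σ : X → (K hM)[N], (∀ x y, σ (x * y) = σ x * σ y) ∧
      (∀ n, σ (ι n) = single n 1 * eB hM {θ}) ∧
      (∀ x a, σ x * a = emb (c x) a * σ x) ∧
      ∀ (z : X) (l : ℂ), MemLocalRing M l → (∀ x, χ (z * x) = l * χ x) →
        σ z = red hM l • eB hM {θ} := by
  have := Fintype.ofFinite N
  obtain ⟨m, ρ, rfl⟩ := hχ
  have hnN : ¬ p ∣ Nat.card N := (Nat.Prime.coprime_iff_not_dvd hM.1).1 hN.symm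
  let τ : Representation ℂ N (Fin m → ℂ) := ρ.comp ι
  have hτ : τ.character = (θ : N → ℂ) := funext hθ
  have : τ.IsIrreducible := Char.isIrreducible_of_isIrr_character τ (hτ ▸ θ.2)
  have h1 : (θ : N → ℂ) 1 = m := by rw [← hτ, Representation.char_one, Module.finrank_fin_fun]
  have hm : (m : ℂ) ≠ 0 := h1 ▸ Char.irr_one_ne_zero θ.2
  have hb := blockIdem_mem_OG hM (Cover.isPBlock_singleton_of_coprime hM hN θ)
  have co : ∀ x n, (coefA τ (ρ x)).coeff n = (m : ℂ) * (Nat.card N : ℂ)⁻¹ * ρ.character (x * ι n⁻¹) := fun x n => by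
    rw [coefA, coeff_ofFun, Representation.character, map_mul ρ]; rfl
  have og : ∀ x, coefA τ (ρ x) ∈ OG hM N := fun x n => by
    rw [co]
    exact lr_mul hM (lr_mul hM (lr_natCast hM _) (lr_inv_nat hM hnN)) (lr_char hM ⟨m, ρ, rfl⟩ _)
  have e1 : coefA τ (ρ 1) = blockIdem {θ} := ga_ext fun n => by
    rw [co, one_mul, hθ, coeff_blockIdem, blockCoeff_singleton, Char.char_inv (Char.irr_isCharacter θ), h1]
    ring
  have rs : ∀ n : N, redA hM (single n (1 : ℂ)) = single n 1 := fun n => by rw [redA_single, red_one]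
  have so : ∀ n : N, single n (1 : ℂ) ∈ OG hM N := fun n => single_mem_OG hM n (lr_one hM)
  refine ⟨fun x => redA hM (coefA τ (ρ x)), fun x y => ?_, fun n => ?_, fun x a => ?_, fun z l hl hz => ?_⟩
  · beta_reduce
    rw [map_mul ρ, coefA_mul τ hm, redA_mul hM (og x) (og y)]
  · beta_reduce
    rw [← mul_one (ι n), map_mul ρ, show ρ (ι n) = τ n from rfl, coefA_left, e1, redA_mul hM (so n) hb, rs, eB]
  · have key : ∀ n : N, redA hM (coefA τ (ρ x)) * single n 1 = single (c x n) 1 * redA hM (coefA τ (ρ x)) := fun n => by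
      rw [← rs, ← rs, ← redA_mul hM (og x) (so _), ← redA_mul hM (so _) (og x), ← coefA_left, ← coefA_right,
        show τ (c x n) = ρ (ι (c x n)) from rfl, show τ n = ρ (ι n) from rfl, ← map_mul, ← map_mul, hc,
        inv_mul_cancel_right]
    beta_reduce
    induction a using MonoidAlgebra.induction_linear with
    | zero => simp
    | add a b ha hb => rw [mul_add, map_add, add_mul, ha, hb]
    | single n r =>
      rw [show (single n r : (K hM)[N]) = r • single n 1 by simp, map_smul, mul_smul_comm, smul_mul_assoc, key,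
        BrPair.emb_single]
  · have : coefA τ (ρ z) = l • blockIdem {θ} := ga_ext fun n => by
      rw [coeff_smul', ← e1, co, co, hz, one_mul]
      ring
    beta_reduce
    rw [this, redA_smul hM hl hb, eB]

end CfsgLib.DGN
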