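import Cfsg.Agent.Lib.DGN.AC
import Cfsg.Agent.Lib.BrPair.Emb

/-! # DGN / CoreAlg: the algebraic part of CORE (from the maps `σ`, `a`, `j`, `Ψ` to `μ`) -/

set_option autoImplicit false
set_option linter.unusedSectionVars false

namespace CfsgLib.DGN

open MonoidAlgebra
open CfsgLib.BrPair (emb res Supp)

section Corner

variable {k : Type*} [Field k] {A : Type*} [Ring A] [Algebra k A] {m : Type*} [Fintype m]
  [DecidableEq m] {Ψ : A →ₗ[k] Matrix m m k} {J e : A}

theorem corner_mul_right (h1 : Ψ 1 = 1) (hm : ∀ a b, Ψ (a * J * b) = Ψ a * Ψ b) (a : A) {b : A}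
    (hb : b * J = J * b) : Ψ (a * b) = Ψ a * Ψ b := by
  rw [← hm, mul_assoc a, ← hb, ← mul_assoc, ← mul_one (a * b * J), hm, h1, mul_one]

theorem corner_mul_left (h1 : Ψ 1 = 1) (hm : ∀ a b, Ψ (a * J * b) = Ψ a * Ψ b) {a : A}
    (ha : a * J = J * a) (b : A) : Ψ (a * b) = Ψ a * Ψ b := by
  rw [← hm, ha, mul_assoc, ← one_mul J, hm, h1, one_mul]

theorem corner_conj (h1 : Ψ 1 = 1) (hm : ∀ a b, Ψ (a * J * b) = Ψ a * Ψ b) (a : A) :
    Ψ (J * a * J) = Ψ a := by
  rw [← mul_one (J * a * J), hm, h1, mul_one, ← one_mul J, hm, h1, one_mul]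

theorem corner_e (h0 : ∀ a, Ψ a = 0 ↔ e * (J * a * J) = 0) (he : e * e = e)
    (hec : ∀ a, e * a = a * e) (a : A) : Ψ (e * a) = Ψ a := by
  rw [← sub_eq_zero, ← map_sub, h0, mul_sub, sub_mul, mul_sub, ← mul_assoc J e, ← hec J,
    mul_assoc e J, mul_assoc e, ← mul_assoc e e, he, sub_self]

theorem corner_section (hs : Function.Surjective Ψ) (h0 : ∀ a, Ψ a = 0 ↔ e * (J * a * J) = 0) :
    ∃ β : Matrix m m k →ₗ[k] A, ∀ a, β (Ψ a) = e * (J * a * J) := by
  obtain ⟨sec, hsec⟩ := Ψ.exists_rightInverse_of_surjective (LinearMap.range_eq_top.2 hs)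
  refine ⟨LinearMap.mulLeft k e ∘ₗ LinearMap.mulRight k J ∘ₗ LinearMap.mulLeft k J ∘ₗ sec,
    fun a => ?_⟩
  have h : Ψ (sec (Ψ a) - a) = 0 := by
    rw [map_sub, sub_eq_zero]
    exact LinearMap.congr_fun hsec (Ψ a)
  rw [h0, mul_sub, sub_mul, mul_sub, sub_eq_zero] at h
  exact h

theorem scalar_eq_one {p : ℕ} [hp : Fact p.Prime] [CharP k p] {S : Matrix m m k}
    (hc : ∀ F, S * F = F * S) {n : ℕ} (hS : S ^ p ^ n = 1) : S = 1 := by
  obtain ⟨t, rfl⟩ : S ∈ Set.range (Matrix.scalar m) := by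
    rw [← Matrix.center_eq_range]
    exact Semigroup.mem_center_iff.2 fun F => (hc F).symm
  rcases isEmpty_or_nonempty m with h | h
  · exact Subsingleton.elim _ _
  rw [← map_pow, ← map_one (Matrix.scalar m), Matrix.scalar_inj] at hS
  have h1 : (t - 1) ^ p ^ n = 0 := by rw [sub_pow_char_pow, hS, one_pow, sub_self]
  rw [sub_eq_zero.1 (pow_eq_zero_iff (pow_ne_zero _ hp.out.ne_zero) |>.1 h1), map_one]

end Corner

variable {k : Type*} [Field k] {p : ℕ} [hp : Fact p.Prime] [CharP k p]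

theorem core_alg {N C Y Q Γ : Type*} [Group N] [Finite N] [Group C] [Finite C] [Group Y]
    [Group Q] [Finite Q] [Group Γ] [Finite Γ] (κ : C →* N) (hκ : Function.Injective κ)
    (cY : Y →* MulAut N) (σ : Y → k[N]) (hσ : ∀ x y, σ (x * y) = σ x * σ y)
    (hσc : ∀ x b, σ x * b = emb (cY x : N →* N) b * σ x)
    (hQ : ∀ u v : Q, u * v = v * u) (hQp : IsPGroup p Q) (ιQ : Q →* Y)
    (hpow : ∀ u, cY (ιQ u) ^ p = 1) (hfix : ∀ n, (∀ u, cY (ιQ u) n = n) ↔ n ∈ κ.range)
    (π : Γ →* Y) (cΓ : Γ → C →* C) (hcΓ : ∀ g c, κ (cΓ g c) = cY (π g) (κ c))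
    (a : Γ → k[C]) (ha : ∀ g h, a (g * h) = a g * a h)
    (hac : ∀ g b, a g * b = emb (cΓ g) b * a g)
    (act : Γ →* Equiv.Perm Q) (hact : ∀ g u, ιQ (act g u) = π g * ιQ u * (π g)⁻¹)
    {j : k[C]} (hj0 : j ≠ 0) (hj : j * j = j) (hej : a 1 * j = j)
    (hjp : ∀ b, ∃ t : k, j * b * j = t • j)
    {m : Type*} [Fintype m] [DecidableEq m] (Ψ : k[N] →ₗ[k] Matrix m m k) (h1 : Ψ 1 = 1)
    (hm : ∀ x y, Ψ (x * emb κ j * y) = Ψ x * Ψ y) (hs : Function.Surjective Ψ)
    (h0 : ∀ x, Ψ x = 0 ↔ σ 1 * (emb κ j * x * emb κ j) = 0)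
    {t : k} (ht : t ≠ 0) (hres : res κ (σ 1) * a 1 = t • a 1) :
    ∃ μ : Γ →* kˣ, ∀ g (l : k), act g = 1 →
      emb κ (a g⁻¹) * σ (π g) = l • (emb κ (a 1) * σ 1) → (μ g : k) = l := by
  classical
  have := Fintype.ofFinite N
  set J : k[N] := emb κ j with hJ
  set e : k[N] := σ 1 with he
  let cj : Y → k[N] →ₐ[k] k[N] := fun x => emb (cY x : N →* N)
  have hcj : ∀ x b, σ x * b = cj x b * σ x := hσc
  have hcjm : ∀ x y b, cj (x * y) b = cj x (cj y b) := fun x y b => by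
    simp only [cj]
    rw [← BrPair.emb_comp, map_mul]
    rfl
  have hcj1 : ∀ b, cj 1 b = b := fun b => by
    simp only [cj]
    rw [map_one]
    exact BrPair.emb_id b
  have hcoeff : ∀ x (b : k[N]) n, (cj x b).coeff n = b.coeff (cY x⁻¹ n) := fun x b n => by
    have := BrPair.coeff_emb_apply (ι := (cY x : N →* N)) (cY x).injective b (cY x⁻¹ n)
    rw [← this]
    congr 1
    change n = (cY x * cY x⁻¹) n
    rw [← map_mul, mul_inv_cancel, map_one]
    rfl
  have hee : e * e = e := by rw [he, ← hσ, mul_one]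
  have hec : ∀ b, e * b = b * e := fun b => by rw [he, hcj, hcj1]
  have hκc : ∀ g (b : k[C]), emb κ (emb (cΓ g) b) = cj (π g) (emb κ b) := fun g b => by
    simp only [cj]
    rw [← BrPair.emb_comp, ← BrPair.emb_comp]
    congr 2
    exact MonoidHom.ext fun c => hcΓ g c
  have hQκ : ∀ u (b : k[C]), cj (ιQ u) (emb κ b) = emb κ b := fun u b => by
    simp only [cj]
    rw [← BrPair.emb_comp]
    congr 2
    exact MonoidHom.ext fun c => (hfix _).2 ⟨c, rfl⟩ u
  have hσκ : ∀ u (b : k[C]), σ (ιQ u) * emb κ b = emb κ b * σ (ιQ u) := fun u b => by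
    rw [hcj, hQκ]
  have hcje : ∀ x, cj x e = e := fun x => by
    have h2 : cj x e * e = e := by
      calc cj x e * e = cj x e * σ x * σ x⁻¹ := by rw [mul_assoc, ← hσ, mul_inv_cancel]
        _ = e := by rw [← hcj, he, ← hσ, ← hσ, mul_one, mul_inv_cancel]
    have h3 : e * cj x e = cj x e := by
      have h4 : cj x⁻¹ e * e = e := by
        calc cj x⁻¹ e * e = cj x⁻¹ e * σ x⁻¹ * σ x := by rw [mul_assoc, ← hσ, inv_mul_cancel]
          _ = e := by rw [← hcj, he, ← hσ, ← hσ, mul_one, inv_mul_cancel]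
      have h5 := congrArg (cj x) h4
      rwa [map_mul, ← hcjm, mul_inv_cancel, hcj1] at h5
    rw [← h3, hec, h2]
  have hΨe : ∀ b, Ψ (e * b) = Ψ b := corner_e h0 hee hec
  -- the representation of `Q`
  let s : Q →* Matrix m m k :=
    { toFun := fun u => Ψ (σ (ιQ u))
      map_one' := by rw [map_one, ← he, ← mul_one e, hΨe, h1]
      map_mul' := fun u v => by rw [map_mul, hσ, corner_mul_right h1 hm _ (hσκ v j)] }
  have hs' : ∀ u, s u = Ψ (σ (ιQ u)) := fun _ => rfl
  have hsc : ∀ u b, Ψ (cj (ιQ u) b) = s u * Ψ b * s u⁻¹ := fun u b => by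
    rw [hs', ← corner_mul_left h1 hm (hσκ u j), hcj, corner_mul_right h1 hm _ (hσκ u j), ← hs',
      mul_assoc, ← map_mul, mul_inv_cancel, map_one, mul_one]
  have hsp : ∀ u, s u ^ p = 1 := fun u => by
    obtain ⟨n, hn⟩ := hQp u
    refine scalar_eq_one (p := p) (fun F => ?_) (n := n)
      (by rw [← pow_mul, mul_comm, pow_mul, ← map_pow, hn, map_one, one_pow])
    obtain ⟨b, rfl⟩ := hs F
    have h2 := hsc (u ^ p) b
    have h3 : cj (ιQ (u ^ p)) b = b := by
      simp only [cj]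
      rw [map_pow, map_pow, hpow]
      exact BrPair.emb_id b
    rw [h3] at h2
    rw [← map_pow]
    conv_rhs => rw [h2]
    rw [mul_assoc, ← map_mul, inv_mul_cancel, map_one, mul_one]
  -- the representation of `Γ`
  have hak : ∀ g (b : k[C]), emb κ (a g⁻¹) * cj (π g) (emb κ b) = emb κ b * emb κ (a g⁻¹) := by
    intro g b
    rw [← hκc, ← map_mul, hac, map_mul, hκc, hκc, ← hcjm, ← map_mul, inv_mul_cancel, map_one, hcj1]
  have hwJ : ∀ g, emb κ (a g⁻¹) * σ (π g) * J = J * (emb κ (a g⁻¹) * σ (π g)) := fun g => by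
    rw [mul_assoc, hcj, ← mul_assoc, hJ, hak, mul_assoc]
  have hΨ1 : Ψ (emb κ (a 1) * e) = 1 := by
    have h2 : emb κ (a 1) * J = J := by rw [hJ, ← map_mul, hej]
    rw [← hec, hΨe, ← mul_one (Ψ _), ← h1, ← hm, h2, ← one_mul J, hm, h1, mul_one]
  let τ : Γ →* Matrix m m k :=
    { toFun := fun g => Ψ (emb κ (a g⁻¹) * σ (π g))
      map_one' := by rw [inv_one, map_one, ← he, hΨ1]
      map_mul' := fun g h => by
        rw [← corner_mul_right h1 hm _ (hwJ h),
          mul_inv_rev, ha, map_mul (emb κ), map_mul π, hσ, ← hak g,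
          mul_assoc, mul_assoc, ← mul_assoc (σ (π g)), hcj (π g) (emb κ _), mul_assoc] }
  have hτ' : ∀ g, τ g = Ψ (emb κ (a g⁻¹) * σ (π g)) := fun _ => rfl
  let E : k[N] ≃ₗ[k] (N → k) :=
    (coeffLinearEquiv k).trans (Finsupp.linearEquivFunOnFinite k k N)
  have hE : ∀ b n, E b n = b.coeff n := fun _ _ => rfl
  obtain ⟨β, hβ⟩ := corner_section hs h0
  obtain ⟨μ, hμ⟩ := ac (p := p) hQ (fun u => MulAut.toPerm N (cY (ιQ u)⁻¹))
    (fun u v => by
      rw [Commute, SemiconjBy, ← map_mul, ← map_mul, ← map_mul, ← map_mul, ← mul_inv_rev,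
        ← mul_inv_rev, ← map_mul, ← map_mul, hQ])
    (fun u => by rw [← map_pow, map_inv, inv_pow, hpow, inv_one, map_one])
    s hsp act τ
    (fun g u => by
      rw [hτ', hs', hs', ← corner_mul_right h1 hm _ (hσκ u j), ← corner_mul_left h1 hm (hσκ _ j),
        ← mul_assoc, hσκ, mul_assoc, mul_assoc, ← hσ, ← hσ, hact, inv_mul_cancel_right])
    (Ψ ∘ₗ E.symm.toLinearMap) (E.toLinearMap ∘ₗ β)
    (fun u f => by
      change Ψ (E.symm _) = s u * Ψ (E.symm f) * s u⁻¹
      rw [← hsc]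
      congr 1
      refine E.injective (funext fun n => ?_)
      rw [E.apply_symm_apply, hE, hcoeff, ← hE, E.apply_symm_apply]
      rfl)
    (fun u F n => by
      obtain ⟨b, rfl⟩ := hs F
      change (β _).coeff n = (β _).coeff (cY (ιQ u)⁻¹ n)
      rw [← hsc, hβ, hβ, ← hcoeff, map_mul, map_mul, map_mul, hcje, hJ, hQκ])
    (fun F => by
      obtain ⟨b, rfl⟩ := hs F
      change Ψ (E.symm (E (β _))) = _
      rw [E.symm_apply_apply, hβ, hΨe, corner_conj h1 hm])
    (fun n hn => by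
      obtain ⟨c, rfl⟩ := (hfix n).1 fun u => by
        have := hn u⁻¹
        rwa [← map_inv, inv_inv] at this
      obtain ⟨r, hr⟩ := hjp (single c 1)
      refine ⟨r, ?_⟩
      have h2 : E.symm (Pi.single (κ c) 1) = emb κ (single c 1) := by
        rw [BrPair.emb_single]
        refine E.injective (funext fun n => ?_)
        rw [E.apply_symm_apply, hE, coeff_single, Finsupp.single_apply, Pi.single_apply]
        simp only [eq_comm]
      change Ψ (E.symm _) = _
      rw [h2, ← corner_conj h1 hm, hJ, ← map_mul, ← map_mul, hr, map_smul, map_smul, ← hJ,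
        ← mul_one J, ← one_mul J, hm, h1, mul_one])
    (by
      have h2 : res κ (J * e) = t • j := by
        rw [BrPair.res_mul hκ (BrPair.supp_emb κ j), BrPair.res_emb hκ]
        have h3 : j * a 1 = j := by
          have h4 := hac 1 j
          have h5 : emb (cΓ 1) j = j := BrPair.emb_injective hκ (by rw [hκc, map_one, hcj1])
          rw [h5, hej] at h4
          exact h4.symm
        have h6 : a 1 * res κ e = res κ e * a 1 := by
          rw [hac]
          congr 1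
          exact BrPair.emb_injective hκ (by rw [hκc, map_one, hcj1])
        rw [← h3, mul_assoc, h6, hres, mul_smul_comm]
      obtain ⟨c, hc⟩ := BrPair.exists_coeff_ne_zero (smul_ne_zero ht hj0)
      refine ⟨κ c, fun u => ?_, ?_⟩
      · have := (hfix _).2 ⟨c, rfl⟩ u⁻¹
        rwa [map_inv] at this
      · change (β 1).coeff (κ c) ≠ 0
        rw [← h1, hβ, mul_one, hJ, ← map_mul, hj, ← hJ, hec]
        rwa [← h2] at hc)
  refine ⟨μ, fun g l hg hl => hμ g l hg ?_⟩
  rw [hτ', hl, map_smul, hΨ1]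

end CfsgLib.DGN
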