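import Cfsg.Agent.Lib.Cover.FongP
import Cfsg.Agent.Lib.Glaub.Cong

/-! # DGN / TRUNC: the truncation of `e_θ` to a subgroup acts on `e_β` as a unit if `p ∤ [θ_C, β]`

Proof plan.  Over `ℂ`: `z = res κ (blockIdem {θ}) ∈ Z ℂ C`, `z * blockIdem {β} = omega β z •
blockIdem {β}` and `omega β z = θ(1) |C| m / (|N| β(1))`, `m = mult κ θ β`; all five factors are
prime to `p` (degrees divide the group orders).  Reduce. -/

set_option autoImplicit false

namespace CfsgLib.DGN

attribute [local implicit_reducible] CfsgLib.Block.K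

open Cfsg MonoidAlgebra CfsgLib.Block CfsgLib.Glaub
open CfsgLib.BrPair (emb res)

variable {p : ℕ} [Fact p.Prime] {M : Ideal AlgInt}

theorem res_eB_mul_eB (hM : IsPModular p M) {N C : Type*} [Group N] [Finite N] [Group C]
    [Fintype C] (hN : (Nat.card N).Coprime p) (κ : C →* N) (hκ : Function.Injective κ)
    (θ : IrrCharacter N) (β : IrrCharacter C) (h : ¬ p ∣ mult κ (θ : N → ℂ) (β : C → ℂ)) :
    ∃ t : K hM, t ≠ 0 ∧ res κ (eB hM {θ}) * eB hM {β} = t • eB hM {β} := by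
  have hnN : ¬ p ∣ Nat.card N := (Nat.Prime.coprime_iff_not_dvd hM.1).1 hN.symm
  have hCN : Nat.card C ∣ Nat.card N := Subgroup.card_dvd_of_injective κ hκ
  have hC : (Nat.card C).Coprime p := hN.coprime_dvd_left hCN
  have hnC : ¬ p ∣ Nat.card C := fun h => hnN (h.trans hCN)
  have hθ := Cover.isPBlock_singleton_of_coprime hM hN θ
  have hβ := Cover.isPBlock_singleton_of_coprime hM hC β
  set z : ℂ[C] := res κ (blockIdem {θ}) with hz
  have zZ : z ∈ Z ℂ C := mem_Z_iff.2 fun g x => by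
    simp only [hz, BrPair.coeff_res, map_mul, map_inv]
    exact mem_Z_iff.1 (blockIdem_mem_Z _) _ _
  have zO : z ∈ OG hM C := fun g => blockIdem_mem_OG hM hθ (κ g)
  have e1 : z * blockIdem {β} = omega (β : C → ℂ) z • blockIdem {β} := by
    refine Z_ext (mul_mem zZ (blockIdem_mem_Z _)) (Subalgebra.smul_mem _ (blockIdem_mem_Z _) _) fun χ => ?_
    rw [omega_mul χ.2 zZ, map_smul, smul_eq_mul]
    by_cases e : χ = β
    · rw [e]
    · rw [omega_blockIdem_of_notMem (B := {β}) e, mul_zero, mul_zero]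
  have e2 : omega (β : C → ℂ) z = (charDegree (θ : N → ℂ) : ℂ) * (Nat.card C : ℂ) *
      (mult κ (θ : N → ℂ) (β : C → ℂ) : ℂ) * ((Nat.card N : ℂ)⁻¹ * (charDegree (β : C → ℂ) : ℂ)⁻¹) := by
    have e3 := congrArg (starRingEnd ℂ) (mult_spec κ (Char.irr_isCharacter θ) (Char.irr_isCharacter β))
    have c0 : (Nat.card C : ℂ) ≠ 0 := Nat.cast_ne_zero.2 Nat.card_pos.ne'
    simp only [classInner, map_mul, map_inv₀, map_natCast, map_sum, Complex.conj_conj] at e3
    rw [← e3, omega_apply, chiA_apply, charDegree_eq (Char.irr_isCharacter θ), charDegree_eq (Char.irr_isCharacter β)]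
    simp only [hz, BrPair.coeff_res, coeff_blockIdem, blockCoeff_singleton, mul_assoc, ← Finset.mul_sum]
    field_simp
  have d1 : ¬ p ∣ charDegree (θ : N → ℂ) := fun h => hnN (h.trans (charDegree_dvd_card θ.2))
  have d2 : ¬ p ∣ charDegree (β : C → ℂ) := fun h => hnC (h.trans (charDegree_dvd_card β.2))
  have nl : ¬ MemLocalIdeal M (omega (β : C → ℂ) z) := by
    rw [e2, ← Nat.cast_mul, ← Nat.cast_mul, ← mul_inv, ← Nat.cast_mul]
    have q1 : ¬ p ∣ Nat.card N * charDegree (β : C → ℂ) := hM.1.not_dvd_mul hnN d2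
    exact not_li_mul hM (lr_natCast hM _) (lr_inv_nat hM q1)
      (fun h' => hM.1.not_dvd_mul (hM.1.not_dvd_mul d1 hnC) h ((li_natCast_iff hM _).1 h')) (not_li_inv_nat hM q1)
  have lr := lr_omega hM β.2 zZ zO
  refine ⟨red hM (omega (β : C → ℂ) z), fun h0 => nl ((red_eq_zero_iff hM lr).1 h0), ?_⟩
  have e4 : res κ (eB hM {θ}) = redA hM z := ga_ext fun g => rfl
  rw [e4, eB, ← redA_mul hM zO (blockIdem_mem_OG hM hβ), e1, redA_smul hM lr (blockIdem_mem_OG hM hβ)]

end CfsgLib.DGN
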