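import Cfsg.Agent.Lib.Cover.FongP

/-! # DGN / WED: the block `eB {θ} · k[N]` of a `p'`-group is a matrix algebra

Proof plan.  `wed`: Maschke (`k[N]` semisimple) +
`IsSemisimpleRing.exists_algEquiv_pi_matrix_of_isAlgClosed`; `e = eB hM {θ}` is nonzero in some
factor `i`, the central idempotent `f_i` of that factor has `f_i e ≠ 0` so `f_i e = e`
(`idem_mul_eB`, `isPBlock_singleton_of_coprime`), and `e` is `1` in factor `i` (a nonzero central
idempotent of a matrix algebra), so `e = f_i`.  `wed_prim`: `j = e * a` with `Φ a = E₁₁`.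
`wed_corner`: `J = Φ j = A * B` with `B * A = 1` (basis of the range of `J`), `Ψ a = B * Φ a * A`. -/

set_option autoImplicit false

namespace CfsgLib.DGN

attribute [local implicit_reducible] CfsgLib.Block.K

open Cfsg MonoidAlgebra CfsgLib.Block

variable {p : ℕ} [Fact p.Prime] {M : Ideal AlgInt}

/-- an idempotent matrix factors through its range -/
theorem wed_factor {k : Type*} [Field k] {d : ℕ} {J : Matrix (Fin d) (Fin d) k} (hJ : J * J = J) :
    ∃ (m : ℕ) (A : Matrix (Fin d) (Fin m) k) (B : Matrix (Fin m) (Fin d) k), A * B = J ∧ B * A = 1 := by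
  let W := LinearMap.range (Matrix.toLin' J)
  let b := Module.finBasis k W
  let e := Pi.basisFun k (Fin d)
  refine ⟨_, LinearMap.toMatrix b e W.subtype, LinearMap.toMatrix e b (Matrix.toLin' J).rangeRestrict, ?_, ?_⟩
  · rw [← LinearMap.toMatrix_comp, LinearMap.subtype_comp_codRestrict, LinearMap.toMatrix_eq_toMatrix',
      LinearMap.toMatrix'_toLin']
  · rw [← LinearMap.toMatrix_comp, ← LinearMap.toMatrix_id b]
    congr 1
    refine LinearMap.ext fun ⟨_, v, rfl⟩ => Subtype.ext ?_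
    change Matrix.toLin' J (Matrix.toLin' J v) = Matrix.toLin' J v
    rw [← Matrix.toLin'_mul_apply, hJ]

theorem wed (hM : IsPModular p M) {N : Type*} [Group N] [Finite N]
    (hN : (Nat.card N).Coprime p) (θ : IrrCharacter N) :
    ∃ (d : ℕ) (Φ : (K hM)[N] →ₐ[K hM] Matrix (Fin d) (Fin d) (K hM)), 0 < d ∧
      Function.Surjective Φ ∧ ∀ a, Φ a = 0 ↔ eB hM {θ} * a = 0 := by
  have hnN : ¬ p ∣ Nat.card N := (Nat.Prime.coprime_iff_not_dvd hM.1).1 hN.symm
  have : NeZero (Nat.card N : K hM) := ⟨fun h => hnN ((CharP.cast_eq_zero_iff (K hM) p _).1 h)⟩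
  obtain ⟨n, d, hd, ⟨φ⟩⟩ := IsSemisimpleRing.exists_algEquiv_pi_matrix_of_isAlgClosed (K hM) (K hM)[N]
  have hb := Cover.isPBlock_singleton_of_coprime hM hN θ
  set e := eB hM {θ} with he
  obtain ⟨i, hi⟩ : ∃ i, φ e i ≠ 0 := by
    by_contra h
    push Not at h
    exact eB_ne_zero hM hb (φ.injective ((funext h).trans (map_zero φ).symm))
  have ee : φ e i * φ e i = φ e i := by rw [← Pi.mul_apply, ← map_mul, eB_mul_self hM hb]
  have e1 : φ e i = 1 := by
    obtain ⟨c, hc⟩ : φ e i ∈ Set.range (Matrix.scalar (Fin (d i))) :=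
      Matrix.mem_range_scalar_iff_commute_single'.2 fun a b => by
        have := congrFun (congrArg φ (Z_comm (eB_mem_Z hM {θ}) (φ.symm (Pi.single i (Matrix.single a b 1))))) i
        simpa [Commute, SemiconjBy] using this.symm
    rw [← hc, ← map_mul] at ee
    have := hd i
    have c1 : c * c = c := (Matrix.scalar_inj (n := Fin (d i))).1 ee
    have c0 : c ≠ 0 := by rintro rfl; exact hi (by rw [← hc, map_zero])
    rw [← hc, mul_left_cancel₀ c0 (c1.trans (mul_one c).symm), map_one]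
  let f : (K hM)[N] := φ.symm (Pi.single i 1)
  have fm : ∀ a, φ (f * a) = Pi.single i (φ a i) := fun a => by
    rw [map_mul, φ.apply_symm_apply, ← Pi.single_mul_left, one_mul]
  have fZ : f ∈ Z (K hM) N := Subalgebra.mem_center_iff.2 fun a => φ.injective (by
    rw [fm, map_mul, φ.apply_symm_apply, ← Pi.single_mul_right, mul_one])
  have fi : IsIdempotentElem f := φ.injective (by rw [fm, φ.apply_symm_apply, Pi.single_eq_same])
  have fe : f * e = f := φ.injective (by rw [fm, e1, φ.apply_symm_apply])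
  have ef : e = f := by
    rcases idem_mul_eB hM hb (Set.mem_singleton θ) fZ fi with ⟨-, h⟩ | ⟨-, h⟩
    · have := congrFun (fm e) i
      rw [h, map_zero, Pi.single_eq_same] at this
      exact absurd this.symm hi
    · exact h.symm.trans fe
  refine ⟨d i, (Pi.evalAlgHom (K hM) _ i).comp φ.toAlgHom, (hd i).pos, fun X => ⟨φ.symm (Pi.single i X), by simp⟩,
    fun a => ?_⟩
  rw [ef, ← φ.injective.eq_iff, fm, map_zero, Pi.single_eq_zero_iff]
  rfl

theorem wed_prim (hM : IsPModular p M) {N : Type*} [Group N] [Finite N]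
    (hN : (Nat.card N).Coprime p) (θ : IrrCharacter N) :
    ∃ j : (K hM)[N], j ≠ 0 ∧ j * j = j ∧ eB hM {θ} * j = j ∧
      ∀ a, ∃ t : K hM, j * a * j = t • j := by
  obtain ⟨d, Φ, hd, hs, hk⟩ := wed hM hN θ
  have hb := Cover.isPBlock_singleton_of_coprime hM hN θ
  have ee := eB_mul_self hM hb
  set e := eB hM {θ} with he
  have e1 : Φ e = 1 := by
    have := (hk (1 - e)).2 (by rw [mul_sub, mul_one, ee, sub_self])
    rwa [map_sub, map_one, sub_eq_zero, eq_comm] at this
  have inj : ∀ a b, e * a = a → e * b = b → Φ a = Φ b → a = b := fun a b ha hb h => by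
    have := (hk (a - b)).1 (by rw [map_sub, h, sub_self])
    rwa [mul_sub, ha, hb, sub_eq_zero] at this
  let o : Fin d := ⟨0, hd⟩
  obtain ⟨a, ha⟩ := hs (Matrix.single o o 1)
  have hj : Φ (e * a) = Matrix.single o o 1 := by rw [map_mul, e1, ha, one_mul]
  have ej : e * (e * a) = e * a := by rw [← mul_assoc, ee]
  refine ⟨e * a, fun h => ?_, inj _ _ (by rw [← mul_assoc, ej]) ej (by rw [map_mul, hj]; simp), ej, fun b =>
    ⟨Φ b o o, inj _ _ (by rw [← mul_assoc e (e * a * b), ← mul_assoc e (e * a), ej]) (by rw [mul_smul_comm, ej]) ?_⟩⟩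
  · rw [h, map_zero] at hj
    simpa using congrFun (congrFun hj o) o
  · rw [map_mul, map_mul _ _ b, map_smul, hj, Matrix.single_mul_mul_single]
    simp

theorem wed_corner (hM : IsPModular p M) {N : Type*} [Group N] [Finite N]
    (hN : (Nat.card N).Coprime p) (θ : IrrCharacter N) {j : (K hM)[N]} (hj : j * j = j) :
    ∃ (m : ℕ) (Ψ : (K hM)[N] →ₗ[K hM] Matrix (Fin m) (Fin m) (K hM)), Ψ 1 = 1 ∧
      (∀ a b, Ψ (a * j * b) = Ψ a * Ψ b) ∧ Function.Surjective Ψ ∧
      ∀ a, Ψ a = 0 ↔ eB hM {θ} * (j * a * j) = 0 := by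
  obtain ⟨d, Φ, -, hs, hk⟩ := wed hM hN θ
  obtain ⟨m, A, B, h1, h2⟩ := wed_factor (J := Φ j) (by rw [← map_mul, hj])
  refine ⟨m, ⟨⟨fun a => B * Φ a * A, fun a b => by rw [map_add, Matrix.mul_add, Matrix.add_mul]⟩, fun c a => by
    simp⟩, by simp [h2], fun a b => by simp [← h1, Matrix.mul_assoc], fun X => ?_, fun a => ?_⟩
  · obtain ⟨a, ha⟩ := hs (A * X * B)
    refine ⟨a, ?_⟩
    change B * Φ a * A = X
    rw [ha, ← Matrix.mul_assoc, ← Matrix.mul_assoc, h2, Matrix.one_mul, Matrix.mul_assoc, h2, Matrix.mul_one]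
  · change B * Φ a * A = 0 ↔ _
    rw [← hk, map_mul, map_mul, ← h1]
    have e : A * B * Φ a * (A * B) = A * (B * Φ a * A) * B := by simp only [Matrix.mul_assoc]
    rw [e]
    refine ⟨fun h => by rw [h, Matrix.mul_zero, Matrix.zero_mul], fun h => ?_⟩
    have := congrArg (fun Y => B * Y * A) h
    simp only [Matrix.mul_zero, Matrix.zero_mul] at this
    rwa [← Matrix.mul_assoc, ← Matrix.mul_assoc B, h2, Matrix.one_mul, Matrix.mul_assoc _ B, h2, Matrix.mul_one] at this

end CfsgLib.DGN
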