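import Cfsg.Agent.Lib.McKay.OW
import Cfsg.Agent.Lib.Cover.Dade
import Cfsg.Agent.Lib.Triple.Cover
import Cfsg.Agent.Lib.DGN.CoreAlg
import Cfsg.Agent.Lib.DGN.Coef
import Cfsg.Agent.Lib.DGN.Wed
import Cfsg.Agent.Lib.DGN.Trunc

/-! # DGN / CORE: Dade's theorem when `Q` acts on `N` with exponent `p` -/

set_option autoImplicit false

namespace CfsgLib.DGN

attribute [local implicit_reducible] CfsgLib.Block.K

open Cfsg CfsgLib.Glaub Subgroup MonoidAlgebra CfsgLib.Block CfsgLib.Char CfsgLib.CharDeep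
open CfsgLib.BrPair (emb res)

theorem normalizer_le_normalizer_cent {X : Type*} [Group X] (Q : Subgroup X) :
    normalizer (Q : Set X) ≤ normalizer ((centralizer (Q : Set X) : Subgroup X) : Set X) := by
  have key : ∀ g ∈ normalizer (Q : Set X), ∀ x ∈ centralizer (Q : Set X),
      g * x * g⁻¹ ∈ centralizer (Q : Set X) := by
    intro g hg x hx
    refine mem_centralizer_iff.2 fun u hu => ?_
    have h1 : g⁻¹ * u * g⁻¹⁻¹ ∈ Q := (mem_normalizer_iff.1 (inv_mem hg) u).1 hu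
    have h2 := mem_centralizer_iff.1 hx _ h1
    calc u * (g * x * g⁻¹) = g * ((g⁻¹ * u * g⁻¹⁻¹) * x) * g⁻¹ := by group
      _ = g * x * g⁻¹ * u := by rw [h2]; group
  intro g hg
  refine mem_normalizer_iff.2 fun x => ⟨key g hg x, fun hx => ?_⟩
  have := key g⁻¹ (inv_mem hg) _ hx
  simpa [mul_assoc] using this

theorem core {X : Type*} [Group X] [Finite X] {p : ℕ} [Fact p.Prime]
    {Y N Q H C : Subgroup X} [Fintype C] (hNY : N ≤ Y) (hQY : Q ≤ Y) (hHY : H ≤ Y)
    (hY : Y ≤ normalizer (N : Set X)) (hN : ¬ p ∣ Nat.card N) (hQ : IsPGroup p Q)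
    (hQab : ∀ x ∈ Q, ∀ y ∈ Q, x * y = y * x)
    (hQp : ∀ u ∈ Q, u ^ p ∈ centralizer (N : Set X)) (hH : H ≤ normalizer (Q : Set X))
    (hC : C = N ⊓ centralizer (Q : Set X)) (hCN : C ≤ N) (hCH : C ≤ H)
    {χ : Y → ℂ} (hχ : IsCharacter Y χ) (hθ : IsIrrCharacter N (fun n => χ (inclusion hNY n)))
    {β : C → ℂ} (hβ : IsIrrCharacter C β)
    (h : ¬ p ∣ mult (inclusion hCN) (fun n => χ (inclusion hNY n)) β) :
    ∃ ξ : H → ℂ, IsIrrCharacter H ξ ∧ ∀ c : C, ξ (inclusion hCH c) = β c := by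
  classical
  have hp : p.Prime := Fact.out
  obtain ⟨M, hM⟩ := exists_isPModular' hp
  have hNc : (Nat.card N).Coprime p := ((hp.coprime_iff_not_dvd).2 hN).symm
  have hCc : (Nat.card C).Coprime p := hNc.coprime_dvd_left (card_dvd_of_le hCN)
  have hCQ : C ≤ centralizer (Q : Set X) := hC ▸ inf_le_right
  have hYs : Y ≤ McKay.stab N (fun n => χ (inclusion hNY n)) :=
    McKay.le_stab_res hNY hY (isClassFunction_of_isCharacter hχ)
  have hHC : H ≤ normalizer (C : Set X) := by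
    intro g hg
    rw [hC]
    exact inf_normalizer_le_normalizer_inf ⟨hY (hHY hg),
      normalizer_le_normalizer_cent _ (hH hg)⟩
  have hHs : H ≤ McKay.stab C β := fun g hg =>
    McKay.mem_stab_glauberman hQ hN hC hCN hθ (hQY.trans hYs) hβ h (hYs (hHY hg)) (hHC hg)
  -- the cover of `(H, C, β)`
  have hCn : (C.subgroupOf H).Normal := (normal_subgroupOf_iff_le_normalizer hCH).2 hHC
  let ε : C.subgroupOf H ≃* C := subgroupOfEquivOfLe hCH
  have hβ' : IsIrrCharacter (C.subgroupOf H) (fun c => β (ε c)) := isIrr_comp_mulEquiv ε hβ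
  obtain ⟨Γ, _, _, c, -, hc⟩ := Triple.exists_cover (C.subgroupOf H) hβ'
    (fun g n => (hHs g.2).2 (ε n) _ rfl) (d := charDegree β)
    (by rw [map_one]; exact (ChDeg.irr_deg_cast ⟨β, hβ⟩).symm)
  have hZ : ¬ p ∣ Nat.card c.π.ker := by
    rw [← hp.coprime_iff_not_dvd]
    refine (Nat.Coprime.coprime_dvd_left hc (Nat.Coprime.mul_left (hCc.coprime_dvd_left ?_)
      (hCc.coprime_dvd_left (ChDeg.deg_dvd_card hβ)))).symm
    rw [← Nat.card_congr ε.toEquiv]
    exact Triple.detOrder_dvd_card _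
  let ι' : C →* Γ := c.ι.comp ε.symm.toMonoidHom
  have hπι : ∀ x : C, c.π (ι' x) = inclusion hCH x := fun x => c.π_ι _
  let cC : Γ →* MulAut C := C.normalizerMonoidHom.comp ((inclusion hHC).comp c.π)
  obtain ⟨a, ha, haι, hac, haz⟩ := coef hM hCc ι' (fun g => (cC g : C →* C))
    (fun g n => by
      change c.ι _ = g * c.ι _ * g⁻¹
      rw [c.conj_ι]
      rfl)
    (isCharacter_of_isIrr c.irr) ⟨β, hβ⟩ (fun n => by
      change c.E (c.ι _) = β n
      rw [c.E_ι]
      rfl)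
  let cY : Y →* MulAut N := N.normalizerMonoidHom.comp (inclusion hY)
  obtain ⟨σ, hσ, hσι, hσc, -⟩ := coef hM hNc (inclusion hNY) (fun x => (cY x : N →* N))
    (fun _ _ => rfl) hχ ⟨_, hθ⟩ (fun _ => rfl)
  have ha1 : a 1 = eB hM {⟨β, hβ⟩} := by rw [← map_one ι', haι, ← one_def, one_mul]
  have hσ1 : σ 1 = eB hM {⟨_, hθ⟩} := by rw [← map_one (inclusion hNY), hσι, ← one_def, one_mul]
  obtain ⟨j, hj0, hj, hej, hjp⟩ := wed_prim hM hCc ⟨β, hβ⟩
  obtain ⟨m, Ψ, h1, hm, hs, h0⟩ := wed_corner hM hNc ⟨_, hθ⟩ (j := emb (inclusion hCN) j)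
    (by rw [← map_mul, hj])
  obtain ⟨t, ht, hres⟩ := res_eB_mul_eB hM hNc (inclusion hCN) (inclusion_injective hCN)
    ⟨_, hθ⟩ ⟨β, hβ⟩ h
  let act : Γ →* Equiv.Perm Q :=
    (MulAut.toPerm Q).comp (Q.normalizerMonoidHom.comp ((inclusion hH).comp c.π))
  obtain ⟨μ, hμ⟩ := core_alg (p := p) (inclusion hCN) (inclusion_injective hCN) cY σ hσ hσc
    (fun u v => Subtype.ext (hQab _ u.2 _ v.2)) hQ (inclusion hQY)
    (fun u => by
      rw [← map_pow]
      ext n
      have := mem_centralizer_iff.1 (hQp u u.2) n n.2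
      change (u : X) ^ p * n * ((u : X) ^ p)⁻¹ = n
      rw [← this, mul_inv_cancel_right])
    (fun n => by
      constructor
      · intro hn
        refine ⟨⟨n, hC ▸ ⟨n.2, mem_centralizer_iff.2 fun u hu => ?_⟩⟩, rfl⟩
        have : u * (n : X) * u⁻¹ = n := congrArg Subtype.val (hn ⟨u, hu⟩)
        rw [← mul_inv_eq_iff_eq_mul, this]
      · rintro ⟨x, rfl⟩ u
        have := mem_centralizer_iff.1 (hCQ x.2) u u.2
        refine Subtype.ext ?_
        change (u : X) * x * (u : X)⁻¹ = x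
        rw [this, mul_inv_cancel_right])
    ((inclusion hHY).comp c.π) (fun g => (cC g : C →* C)) (fun _ _ => rfl) a ha hac act
    (fun _ _ => rfl) hj0 hj (ha1 ▸ hej) hjp Ψ h1 hm hs (hσ1 ▸ h0) ht (by rw [ha1, hσ1, hres])
  obtain ⟨l, hl⟩ := Cover.exists_hom_red_eq hM ((Units.coeHom _).comp μ)
  have hlC : ∀ x : C, l (ι' x) = 1 := fun x => (hl _).2 (hμ _ 1 (by
      ext u
      have := mem_centralizer_iff.1 (hCQ x.2) u u.2
      change ((c.π (ι' x) : H) : X) * u * ((c.π (ι' x) : H) : X)⁻¹ = u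
      rw [hπι]
      change (x : X) * u * (x : X)⁻¹ = u
      rw [← this, mul_inv_cancel_right])
    (by
      have e1 : ((inclusion hHY).comp c.π) (ι' x) = inclusion hNY (inclusion hCN x) := by
        change inclusion hHY (c.π (ι' x)) = _
        rw [hπι]
        rfl
      have e2 : a 1 * single x 1 = single x 1 * a 1 := by
        rw [hac, map_one]
        exact congrArg (· * a 1) (BrPair.emb_id _)
      rw [← map_inv, haι, e1, hσι, ← ha1, ← hσ1, one_smul, ← mul_assoc, ← BrPair.emb_single,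
        ← map_mul, mul_assoc, e2, ← mul_assoc, single_mul_single, inv_mul_cancel, mul_one,
        ← one_def, one_mul]))
  have hlZ : ∀ z : c.π.ker, (c.lam z : ℂ) * l z = 1 := by
    intro z
    have hpow : ((c.lam z⁻¹ : ℂˣ) : ℂ) ^ Nat.card c.π.ker = 1 := by
      rw [← Units.val_pow_eq_pow_val, ← map_pow, pow_card_eq_one', map_one, Units.val_one]
    have hpow' : l z ^ Nat.card c.π.ker = 1 := by
      rw [← map_pow, ← coe_pow, pow_card_eq_one', coe_one, map_one]
    have hn0 : Nat.card c.π.ker ≠ 0 := Nat.card_pos.ne'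
    have hO := lr_of_isIntegral hM (isIntegral_of_pow_eq_one hn0 hpow)
    have hO' := lr_of_isIntegral hM (isIntegral_of_pow_eq_one hn0 hpow')
    have hz1 : c.π z = 1 := z.2
    have h2 : (μ z : K hM) = red hM (c.lam z⁻¹ : ℂˣ) := hμ z _
      (by simp only [act, MonoidHom.comp_apply, hz1, map_one])
      (by
        rw [haz (z : Γ)⁻¹ _ hO (c.E_mul z⁻¹), MonoidHom.comp_apply, hz1, map_one, map_smul, ← ha1,
          smul_mul_assoc])
    have h3 : l z = (c.lam z⁻¹ : ℂˣ) := eq_of_li_sub_of_pow_eq_one hM hZ hZ hpow' hpow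
      ((red_eq_iff hM hO' hO).1 ((hl z).1.trans h2))
    rw [h3, ← Units.val_mul, ← map_mul, mul_inv_cancel, map_one, Units.val_one]
  obtain ⟨ξ, hξ, hξ'⟩ := Triple.span_up_char c.π (MonoidHom.id Γ) c.surj
    (isCharacter_of_isIrr c.irr) (fun z => c.lam z) (fun z => by rw [← c.E_mul, mul_one])
    (isCharacter_of_isIrr (isIrr_monoidHom l)) (fun z => by rw [map_one]; exact hlZ z)
  have hξC : ∀ x : C, ξ (inclusion hCH x) = β x := fun x => by
    rw [← hπι, hξ', MonoidHom.id_apply, hlC, one_mul]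
    change c.E (c.ι _) = β x
    rw [c.E_ι]
    rfl
  exact ⟨ξ, isIrr_of_comp_isIrr (inclusion hCH) hξ (by rw [funext hξC]; exact hβ), hξC⟩

end CfsgLib.DGN
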