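import Cfsg.Agent.Lib.DGN.Core

/-! # DGN / DG: Dade's theorem above the Glauberman correspondence (abelian `P`)

Proof plan (IND).  First the version of `core` without `hQp` (ambient `Y`, `N, P, H ≤ Y ≤ N_X(N)`,
`χ : Y → ℂ`), by induction on `[P : P ⊓ C(N)]` (or on `Nat.card N`: if `Q` centralises `N` then so
does `P`).  `Q = {u ∈ P | u ^ p ∈ C(N)}` (a subgroup, `P` abelian; normalised by `H`),
`Y₁ = Y ⊓ N(Q)`, `N₁ = N ⊓ C(Q)`, `θ₁` from `glauberman_exists`; `core` (with `H := Y₁`) extends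
`θ₁` to `Y₁`; induct in `(Y₁, N₁, P, H)`; `not_dvd_mult_trans` gives `p ∤ [θ₁|C, β]`.
Base: `P` centralises `N`, `C = N`, `β = θ`, restrict `χ` to `H`.  Then `Y = ⊤`. -/

set_option autoImplicit false

namespace CfsgLib.DGN

open Cfsg CfsgLib.Glaub Subgroup

theorem dg_amb {X : Type*} [Group X] [Finite X] {p : ℕ} [Fact p.Prime]
    {P H C : Subgroup X} [Fintype C] (hP : IsPGroup p P)
    (hPab : ∀ x ∈ P, ∀ y ∈ P, x * y = y * x) (hH : H ≤ normalizer (P : Set X)) (hCH : C ≤ H)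
    {β : C → ℂ} (hβ : IsIrrCharacter C β) (n : ℕ) :
    ∀ {Y N : Subgroup X} (hNY : N ≤ Y), Nat.card N = n → P ≤ Y → H ≤ Y →
      Y ≤ normalizer (N : Set X) → ¬ p ∣ Nat.card N → C = N ⊓ centralizer (P : Set X) →
      ∀ (hCN : C ≤ N) {χ : Y → ℂ}, IsCharacter Y χ →
      IsIrrCharacter N (fun n => χ (inclusion hNY n)) →
      ¬ p ∣ mult (inclusion hCN) (fun n => χ (inclusion hNY n)) β →
      ∃ ξ : H → ℂ, IsIrrCharacter H ξ ∧ ∀ c : C, ξ (inclusion hCH c) = β c := by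
  classical
  induction n using Nat.strong_induction_on with
  | _ n ih =>
  intro Y N hNY hn hPY hHY hY hN hC hCN χ hχ hθ h
  by_cases hall : ∀ u ∈ P, u ^ p ∈ centralizer (N : Set X)
  · exact core hNY hPY hHY hY hN hP hPab hall hH hC hCN hCH hχ hθ hβ h
  -- the subgroup `Q`
  let Q : Subgroup X :=
    { carrier := {u | u ∈ P ∧ u ^ p ∈ centralizer (N : Set X)}
      one_mem' := ⟨one_mem _, by rw [one_pow]; exact one_mem _⟩
      mul_mem' := by
        rintro a b ⟨ha, ha'⟩ ⟨hb, hb'⟩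
        refine ⟨mul_mem ha hb, ?_⟩
        rw [Commute.mul_pow (hPab a ha b hb)]
        exact mul_mem ha' hb'
      inv_mem' := by
        rintro a ⟨ha, ha'⟩
        refine ⟨inv_mem ha, ?_⟩
        rw [inv_pow]
        exact inv_mem ha' }
  have hQP : Q ≤ P := fun _ hu => hu.1
  have hQ : IsPGroup p Q := hP.to_le hQP
  have hnorm : ∀ g ∈ Y, g ∈ normalizer (P : Set X) → g ∈ normalizer (Q : Set X) := by
    intro g hg hg'
    refine mem_normalizer_iff.2 fun u => and_congr (mem_normalizer_iff.1 hg' u) ?_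
    rw [conj_pow]
    exact mem_normalizer_iff.1 (normalizer_le_normalizer_cent N (hY hg)) _
  let N₁ : Subgroup X := N ⊓ centralizer (Q : Set X)
  let Y₁ : Subgroup X := Y ⊓ normalizer (Q : Set X)
  have := Fintype.ofFinite N₁
  have hN₁N : N₁ ≤ N := inf_le_left
  have hN₁Y₁ : N₁ ≤ Y₁ := le_inf (hN₁N.trans hNY)
    (inf_le_right.trans (centralizer_le_normalizer _))
  have hlt : Nat.card N₁ < n := by
    rw [← hn]
    refine lt_of_le_of_ne (card_le_of_le hN₁N) fun he => hall ?_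
    have hN₁ : N₁ = N := eq_of_le_of_card_ge hN₁N he.ge
    have hQC : ∀ u ∈ Q, u ∈ centralizer (N : Set X) := fun u hu =>
      mem_centralizer_iff.2 fun x hx =>
        (mem_centralizer_iff.1 (show x ∈ N₁ from hN₁.symm ▸ hx).2 u hu).symm
    have key : ∀ (k : ℕ), ∀ u ∈ P, u ^ p ^ k ∈ centralizer (N : Set X) →
        u ∈ centralizer (N : Set X) := by
      intro k
      induction k with
      | zero => intro u _ hu; simpa using hu
      | succ k ihk =>
        intro u hu hu'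
        refine ihk u hu (hQC _ ⟨pow_mem hu _, ?_⟩)
        rwa [← pow_mul, ← pow_succ]
    intro u hu
    obtain ⟨k, hk⟩ := hP ⟨u, hu⟩
    refine pow_mem (key k u hu ?_) _
    rw [show u ^ p ^ k = 1 from congrArg Subtype.val hk]
    exact one_mem _
  have hYs : Y ≤ McKay.stab N (fun n => χ (inclusion hNY n)) :=
    McKay.le_stab_res hNY hY (Char.isClassFunction_of_isCharacter hχ)
  obtain ⟨θ₁, hθ₁, hm₁, hu₁⟩ := McKay.glauberman_exists hQ hN (C := N₁) rfl hN₁N hθ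
    ((hQP.trans hPY).trans hYs)
  obtain ⟨χ₁, hχ₁, hχ₁'⟩ := core (H := Y₁) hNY (hQP.trans hPY) inf_le_left hY hN hQ
    (fun x hx y hy => hPab x (hQP hx) y (hQP hy)) (fun u hu => hu.2) inf_le_right rfl hN₁N hN₁Y₁
    hχ hθ hθ₁ hm₁
  have hC₁ : C = N₁ ⊓ centralizer (P : Set X) := by
    rw [hC, inf_assoc, inf_eq_right.2 (centralizer_le hQP)]
  have hCN₁ : C ≤ N₁ := hC₁ ▸ inf_le_left
  have hfun : (fun n => χ₁ (inclusion hN₁Y₁ n)) = θ₁ := funext hχ₁'
  refine ih _ hlt hN₁Y₁ rfl (le_inf hPY fun g hg => hnorm g (hPY hg) (le_normalizer hg))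
    (le_inf hHY fun g hg => hnorm g (hHY hg) (hH hg))
    (fun g hg => inf_normalizer_le_normalizer_inf
      ⟨hY hg.1, normalizer_le_normalizer_cent _ hg.2⟩)
    (fun hd => hN (hd.trans (card_dvd_of_le hN₁N))) hC₁ hCN₁
    (Char.isCharacter_of_isIrr hχ₁) (hfun ▸ hθ₁) ?_
  rw [hfun]
  exact McKay.not_dvd_mult_trans (inclusion hN₁N) (inclusion hCN₁)
    (Char.isCharacter_of_isIrr hθ) hu₁ (Char.isCharacter_of_isIrr hβ) h

/-- **DG**: `N ⊴ X` a `p'`-group, `P` an abelian `p`-subgroup, `H ≤ N_X(P)` containing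
`C = C_N(P)`; if `θ ∈ Irr N` extends to `X`, its Glauberman correspondent `β` extends to `H`. -/
theorem dg {X : Type*} [Group X] [Finite X] {p : ℕ} [Fact p.Prime]
    {N P H C : Subgroup X} [N.Normal] [Fintype C] (hN : ¬ p ∣ Nat.card N) (hP : IsPGroup p P)
    (hPab : ∀ x ∈ P, ∀ y ∈ P, x * y = y * x) (hH : H ≤ normalizer (P : Set X))
    (hC : C = N ⊓ centralizer (P : Set X)) (hCN : C ≤ N) (hCH : C ≤ H)
    {χ : X → ℂ} (hχ : IsCharacter X χ) (hθ : IsIrrCharacter N (fun n : N => χ n))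
    {β : C → ℂ} (hβ : IsIrrCharacter C β)
    (h : ¬ p ∣ mult (inclusion hCN) (fun n : N => χ n) β) :
    ∃ ξ : H → ℂ, IsIrrCharacter H ξ ∧ ∀ c : C, ξ (inclusion hCH c) = β c := by
  exact dg_amb hP hPab hH hCH hβ _ (Y := ⊤) le_top rfl le_top le_top
    (normalizer_eq_top N).ge hN hC hCN (χ := fun y => χ y)
    (Char.isCharacter_restrict ⊤ hχ) hθ h

end CfsgLib.DGN
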