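import Mathlib
import Cfsg.Prelude.Def_BlockLocal
import Cfsg.Agent.Lib.McKay.Core
import Cfsg.Agent.Lib.Cover.PSolvGrp
import Cfsg.Agent.Lib.Block.Local

/-! # DGN / FONG, part 1: the bijection `β ↦ β E` along a span with `p'`-kernels is a perfect isometry -/

set_option autoImplicit false

namespace CfsgLib.DGN

open Cfsg CfsgLib.Char CfsgLib.CharDeep CfsgLib.Block CfsgLib.Triple Subgroup
open scoped ComplexConjugate

variable {Γ G K : Type*} [Group Γ] [Group G] [Group K] [Finite Γ] {p : ℕ} [hp : Fact p.Prime] {M : Ideal AlgInt}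

theorem span_cent (π : Γ →* G) (q : Γ →* K) [Finite K] (hπ : Function.Surjective π) (hZ : π.ker ≤ center Γ)
    (hZp : ¬ p ∣ Nat.card π.ker) (hRp : ¬ p ∣ Nat.card q.ker) (x : Γ) :
    (Nat.card (centralizer ({π x} : Set G))).factorization p ≤
      (Nat.card (centralizer ({q x} : Set K))).factorization p := by
  let A := (centralizer ({π x} : Set G)).comap π
  obtain ⟨S⟩ : Nonempty (Sylow p A) := inferInstance
  have h1 : Nat.card (centralizer ({π x} : Set G)) ∣ Nat.card A :=
    card_dvd_of_surjective _ (McKay.subgroupComap_surj π (by rw [MonoidHom.range_eq_top.2 hπ]; exact le_top))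
  have h2 : ∀ s : S, ((s : A) : Γ) * x = x * ((s : A) : Γ) := fun s => by
    set t : Γ := ((s : A) : Γ)
    have ht : π t * π x = π x * π t := mem_centralizer_singleton_iff.1 (s : A).2
    have hz : t * x * t⁻¹ * x⁻¹ ∈ π.ker := by
      rw [MonoidHom.mem_ker, map_mul, map_mul, map_mul, ht, map_inv, map_inv]; group
    set z := t * x * t⁻¹ * x⁻¹ with hzd
    have hc := mem_center_iff.1 (hZ hz)
    have key : ∀ n : ℕ, t ^ n * x = z ^ n * x * t ^ n := fun n => by
      induction n with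
      | zero => simp
      | succ n ih =>
        have e : t * x = z * x * t := by rw [hzd]; group
        have e2 : t * z ^ n = z ^ n * t := ((Commute.symm (hc t).symm).pow_right n).eq
        rw [pow_succ', mul_assoc, ih, ← mul_assoc, ← mul_assoc, e2, mul_assoc (z ^ n), e, pow_succ z]
        simp only [mul_assoc]
    obtain ⟨k, hk⟩ := S.isPGroup' s
    have hk' : t ^ p ^ k = 1 := congrArg (fun s : S => ((s : A) : Γ)) hk
    have h3 := key (p ^ k)
    rw [hk', one_mul, mul_one, right_eq_mul] at h3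
    have h4 : z ^ Nat.card π.ker = 1 := congrArg Subtype.val (pow_card_eq_one' (x := (⟨z, hz⟩ : π.ker)))
    have h5 := pow_gcd_eq_one.2 ⟨h3, h4⟩
    rw [Nat.Coprime.pow_left k (hp.out.coprime_iff_not_dvd.2 hZp), pow_one, hzd, mul_inv_eq_one,
      mul_inv_eq_iff_eq_mul] at h5
    exact h5
  let f : S →* centralizer ({q x} : Set K) := (q.comp (A.subtype.comp (S : Subgroup A).subtype)).codRestrict _
    fun s => mem_centralizer_singleton_iff.2 (by simpa using congrArg q (h2 s))
  have hf : Function.Injective f := by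
    rw [injective_iff_map_eq_one]
    intro s hs
    have h3 : ((s : A) : Γ) ∈ q.ker := congrArg Subtype.val hs
    have h5 : ((s : A) : Γ) ^ Nat.card q.ker = 1 := congrArg Subtype.val (pow_card_eq_one' (x := (⟨_, h3⟩ : q.ker)))
    have h4 : s ^ Nat.card q.ker = 1 := Subtype.ext (Subtype.ext h5)
    exact McKay.eq_one_of_mem_pgroup (Q := ⊤) (S.isPGroup'.to_subgroup ⊤) (mem_top s) hRp h4
  have h3 := card_dvd_of_injective f hf
  rw [S.card_eq_multiplicity] at h3
  exact ((Nat.factorization_le_iff_dvd (ne_zero_of_dvd_ne_zero Nat.card_pos.ne' h1) Nat.card_pos.ne').2 h1 p).trans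
    ((hp.out.pow_dvd_iff_le_factorization Nat.card_pos.ne').1 h3)

open Classical in
theorem span_sum [Finite K] (Z : Subgroup Γ) [Fintype Z] (q : Γ →* K) (hq : Function.Surjective q)
    (hZ : Z ≤ center Γ) (lam : Γ → ℂ) (h1 : lam 1 = 1) (hl : ∀ z ∈ Z, ∀ z' ∈ Z, lam (z * z') = lam z * lam z')
    (a y : K) :
    ∑ᶠ β ∈ {β : IrrCharacter K | ∀ z ∈ Z, lam z * (β : K → ℂ) (q z) = (β : K → ℂ) 1},
      (β : K → ℂ) a * (β : K → ℂ) y = (Nat.card Z : ℂ)⁻¹ * ∑ z : Z, lam z *
        if IsConj (q z * a) y⁻¹ then (Nat.card (centralizer ({q z * a} : Set K)) : ℂ) else 0 := by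
  have hc : ∀ z ∈ Z, q z ∈ center K := fun z hz => mem_center_iff.2 fun k => by
    obtain ⟨k, rfl⟩ := hq k
    rw [← map_mul, ← map_mul, mem_center_iff.1 (hZ hz)]
  have h2 : ∀ z : Z, (if IsConj (q z * a) y⁻¹ then (Nat.card (centralizer ({q z * a} : Set K)) : ℂ) else 0) =
      ∑ β : IrrCharacter K, (β : K → ℂ) (q z) / (β : K → ℂ) 1 * ((β : K → ℂ) a * (β : K → ℂ) y) := fun z => by
    have : ∀ β : IrrCharacter K, (β : K → ℂ) (q z) / (β : K → ℂ) 1 * ((β : K → ℂ) a * (β : K → ℂ) y) =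
        (β : K → ℂ) (q z * a) * conj ((β : K → ℂ) y⁻¹) := fun β => by
      rw [ChDeg.irr_mul_of_mem_center β.2 (hc z z.2), char_inv (irr_isCharacter β), Complex.conj_conj, mul_assoc]
    simp only [this]
    split_ifs with h
    · rw [column_orthogonality_of_isConj h]
    · rw [column_orthogonality_of_not_isConj h]
  simp only [h2, Finset.mul_sum]
  rw [Finset.sum_comm, finsum_mem_eq_finite_toFinset_sum _ (Set.toFinite _), Set.Finite.toFinset_ofPred,
    Finset.sum_filter]
  refine Finset.sum_congr rfl fun β _ => ?_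
  have h0 := irr_one_ne_zero β.2
  let ω : Z →* ℂ :=
    { toFun := fun z => lam z * ((β : K → ℂ) (q z) / (β : K → ℂ) 1)
      map_one' := by simp [h1, h0]
      map_mul' := fun z z' => by
        rw [coe_mul, hl z z.2 z' z'.2, map_mul, ChDeg.irr_mul_of_mem_center β.2 (hc z z.2)]; ring }
  have h3 : ∑ z : Z, (Nat.card Z : ℂ)⁻¹ * (lam z * ((β : K → ℂ) (q z) / (β : K → ℂ) 1 *
      ((β : K → ℂ) a * (β : K → ℂ) y))) = (Nat.card Z : ℂ)⁻¹ * (∑ z, ω z) * ((β : K → ℂ) a * (β : K → ℂ) y) := by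
    rw [Finset.mul_sum, Finset.sum_mul]
    exact Finset.sum_congr rfl fun z _ => by show _ = _ * (lam z * _) * _; ring
  have h4 : ω = 1 ↔ ∀ z ∈ Z, lam z * (β : K → ℂ) (q z) = (β : K → ℂ) 1 := by
    rw [MonoidHom.ext_iff, Subtype.forall]
    refine forall₂_congr fun z hz => ?_
    show lam z * ((β : K → ℂ) (q z) / (β : K → ℂ) 1) = 1 ↔ _
    rw [← mul_div_assoc, div_eq_one_iff_eq h0]
  rw [h3, sum_hom_units]
  split_ifs with h h' h'
  · rw [← Nat.card_eq_fintype_card, inv_mul_cancel₀ natCard_ne_zero, one_mul]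
  · exact (h' (h4.2 h)).elim
  · exact (h (h4.1 h')).elim
  · simp

/-- the characters above `E|ker q` of `Γ / ker π` are perfectly isometric to those of `Γ / ker q` above `λ⁻¹` -/
theorem pi_span (hM : IsPModular p M) (π : Γ →* G) (q : Γ →* K) [Fintype q.ker] (hπ : Function.Surjective π)
    (hq : Function.Surjective q) (hZ : π.ker ≤ center Γ) (hZp : ¬ p ∣ Nat.card π.ker)
    (hRp : ¬ p ∣ Nat.card q.ker) {E : Γ → ℂ} (hE : IsCharacter Γ E) (hEq : IsIrrCharacter q.ker (fun n => E n))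
    (lam : Γ → ℂ) (hlam : ∀ z ∈ π.ker, E z = lam z * E 1) :
    ∃ (I : IrrCharacter K → IrrCharacter G) (ε : IrrCharacter K → ℤ), IsPerfectIsometry p M
      {β : IrrCharacter K | ∀ z ∈ π.ker, lam z * (β : K → ℂ) (q z) = (β : K → ℂ) 1}
      {χ : IrrCharacter G | classInner (fun n : q.ker => (χ : G → ℂ) (π n)) (fun n => E n) ≠ 0} I ε := by
  classical
  have := Finite.of_surjective π hπ
  have := Finite.of_surjective q hq
  have := Fintype.ofFinite π.ker
  have hE' : IsIrrCharacter Γ E := isIrr_of_comp_isIrr q.ker.subtype hE hEq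
  have h0 := irr_one_ne_zero hE'
  have hl : ∀ z ∈ π.ker, lam z = E z / E 1 := fun z hz => by rw [hlam z hz, mul_div_cancel_right₀ _ h0]
  have ex : ∀ β : IrrCharacter K, ∃ χ : IrrCharacter G,
      (∀ z ∈ π.ker, lam z * (β : K → ℂ) (q z) = (β : K → ℂ) 1) →
        ∀ x, (χ : G → ℂ) (π x) = (β : K → ℂ) (q x) * E x := fun β => by
    by_cases h : ∀ z ∈ π.ker, lam z * (β : K → ℂ) (q z) = (β : K → ℂ) 1
    · obtain ⟨χ, hχ, h'⟩ := span_up π q hπ hq hE hEq (fun z => lam z) (fun z => hlam z z.2) β.2 fun z => h z z.2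
      exact ⟨⟨χ, hχ⟩, fun _ => h'⟩
    · exact ⟨irrOne G, fun h' => (h h').elim⟩
  choose I hI using ex
  refine ⟨I, 1, ⟨fun β hβ => ?_, fun β hβ β' hβ' h => ?_, fun χ hχ => ?_⟩, fun _ _ => .inl rfl, fun x y => ?_⟩
  · show classInner (fun n : q.ker => (I β : G → ℂ) (π n)) (fun n => E n) ≠ 0
    rw [show (fun n : q.ker => (I β : G → ℂ) (π n)) = (β : K → ℂ) 1 • fun n : q.ker => E n from
      funext fun n => span_res π q (hI β hβ) n, classInner_smul_left, classInner_irr_self hEq, mul_one]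
    exact irr_one_ne_zero β.2
  · exact Subtype.ext (span_unique q hq hE hEq fun x => by rw [← hI β hβ, ← hI β' hβ', h])
  · obtain ⟨β, hβ, h1, h2⟩ := span_down π q hπ hq hE hEq (fun z => lam z) (fun z => hlam z z.2) χ.2 hχ
    have h3 : ∀ z ∈ π.ker, lam z * β (q z) = β 1 := fun z hz => h1 ⟨z, hz⟩
    refine ⟨⟨β, hβ⟩, h3, Subtype.ext (funext fun g => ?_)⟩
    obtain ⟨x, rfl⟩ := hπ g
    rw [hI ⟨β, hβ⟩ h3, h2]
  obtain ⟨x, rfl⟩ := hπ x
  have hk : signedBijectionKernel
      {β : IrrCharacter K | ∀ z ∈ π.ker, lam z * (β : K → ℂ) (q z) = (β : K → ℂ) 1} I 1 (π x) y =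
      ∑ z : π.ker, E x * (Nat.card π.ker : ℂ)⁻¹ * lam z *
        if IsConj (q z * q x) y⁻¹ then (Nat.card (centralizer ({q z * q x} : Set K)) : ℂ) else 0 := by
    have h1 := span_sum π.ker q hq hZ lam (by rw [hl 1 (one_mem _), div_self h0]) (fun z hz z' hz' => by
      rw [hl z hz, hl z' hz', hl _ (mul_mem hz hz'), ChDeg.irr_mul_of_mem_center hE' (hZ hz)]; ring) (q x) y
    rw [finsum_mem_eq_finite_toFinset_sum _ (Set.toFinite _)] at h1
    simp only [mul_assoc, ← Finset.mul_sum]
    rw [← h1, signedBijectionKernel, finsum_mem_eq_finite_toFinset_sum _ (Set.toFinite _), Finset.mul_sum]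
    refine Finset.sum_congr rfl fun β hβ => ?_
    rw [hI β ((Set.Finite.mem_toFinset _).1 hβ)]
    simp only [Pi.one_apply, Int.cast_one]; ring
  have hu : ∀ z : π.ker, MemLocalRing M (E x * (Nat.card π.ker : ℂ)⁻¹ * lam z) := fun z => by
    refine lr_mul hM (lr_mul hM (lr_of_isIntegral hM (isIntegral_char hE x)) (lr_inv_nat hM hZp))
      (lr_of_isIntegral hM (isIntegral_of_pow_eq_one (n := Nat.card π.ker) Nat.card_pos.ne' ?_))
    have key : ∀ n : ℕ, E ((z : Γ) ^ n) = lam z ^ n * E 1 := fun n => by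
      induction n with
      | zero => simp
      | succ n ih => rw [pow_succ', ChDeg.irr_mul_of_mem_center hE' (hZ z.2), ih, ← hl z z.2]; ring
    have h1 := key (Nat.card π.ker)
    rwa [show (z : Γ) ^ Nat.card π.ker = 1 from congrArg Subtype.val (pow_card_eq_one' (x := z)), right_eq_mul₀ h0]
      at h1
  have hx : ∀ z : π.ker, π x = π (z * x) := fun z => by rw [map_mul, z.2, one_mul]
  rw [hk, Finset.sum_div, Finset.sum_div]
  refine ⟨lr_sum hM fun z _ => ?_, lr_sum hM fun z _ => ?_, ?_⟩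
  · rw [mul_div_assoc]
    refine lr_mul hM (hu z) ?_
    split_ifs with h
    · rw [lr_div_nat_iff hM Nat.card_pos.ne' Nat.card_pos.ne', hx z, ← map_mul]
      exact span_cent π q hπ hZ hZp hRp _
    · rw [zero_div]; exact lr_zero hM
  · rw [mul_div_assoc]
    refine lr_mul hM (hu z) ?_
    split_ifs with h
    · have h1 := column_orthogonality_of_isConj h
      have h2 := column_orthogonality_of_isConj h.symm
      have h3 : centralizer ({y⁻¹} : Set K) = centralizer {y} := by
        ext k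
        rw [mem_centralizer_singleton_iff, mem_centralizer_singleton_iff]
        exact Commute.inv_right_iff
      have h4 := congrArg conj h2
      simp only [map_sum, map_mul, Complex.conj_conj, map_natCast, h3, mul_comm (conj _)] at h4
      rw [← h1, h4, div_self natCard_ne_zero]
      exact lr_one hM
    · rw [zero_div]; exact lr_zero hM
  · rw [or_iff_not_imp_right]
    intro h
    obtain ⟨z, -, hz⟩ := Finset.exists_ne_zero_of_sum_ne_zero h
    have h1 : IsConj (q z * q x) y⁻¹ := by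
      by_contra h'
      rw [if_neg h', mul_zero] at hz
      exact hz rfl
    obtain ⟨c, hc⟩ := isConj_iff.1 h1
    have h2 : orderOf y = orderOf (q (z * x)) := by
      rw [← orderOf_inv, ← hc, map_mul]
      exact (MulAut.conj c).orderOf_eq _
    rw [IsPRegular, IsPRegular, h2, hx z,
      Cover.dvd_orderOf_map_iff π (hp.out.coprime_iff_not_dvd.2 hZp).symm,
      Cover.dvd_orderOf_map_iff q (hp.out.coprime_iff_not_dvd.2 hRp).symm]

end CfsgLib.DGN
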