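import Mathlib
import Cfsg.Agent.Lib.DGN.Span
import Cfsg.Agent.Lib.DGN.DG
import Cfsg.Agent.Lib.DGN.Trunc
import Cfsg.Agent.Lib.Cover.PSolvHt

/-! # DGN / FONG, part 2: the blocks above an invariant character of `O_p'(G)` -/

set_option autoImplicit false

namespace CfsgLib.DGN

attribute [local implicit_reducible] CfsgLib.Block.K

open Cfsg CfsgLib.Char CfsgLib.CharDeep CfsgLib.Block CfsgLib.Fusion CfsgLib.Cover CfsgLib.McKay CfsgLib.Glaub Subgroup
open CfsgLib.BrPair (Cz Nz br trunc res emb Fixed IsBlk sB irrMap)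

universe u

variable {G : Type u} {L : Type*} [Group G] [Finite G] [Group L] [Finite L] {p : ℕ} [hp : Fact p.Prime]
  {M : Ideal AlgInt}

theorem inv_frattini (N : Subgroup G) [N.Normal] (hC : Cz (pCore p (G ⧸ N)) ≤ pCore p (G ⧸ N)) {P : Subgroup G}
    (hP : SylIn p P ⊤) (hab : ∀ x ∈ P, ∀ y ∈ P, x * y = y * x) (g : G) : ∃ n ∈ N, n * g ∈ Nz P := by
  let π := QuotientGroup.mk' N
  have hsurj : Function.Surjective π := QuotientGroup.mk'_surjective N
  have h1 : pCore p (G ⧸ N) ≤ P.map π := by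
    have h7 := hP.map π
    rw [map_top_of_surjective _ hsurj] at h7
    exact h7.le_of_le_normalizer PLocal.PSolv.isPGroup_pCore le_top (by rw [normalizer_eq_top])
  have h2 : P.map π ≤ pCore p (G ⧸ N) := by
    rintro _ ⟨x, hx, rfl⟩
    refine hC (BrPair.mem_Cz.2 fun v hv => ?_)
    obtain ⟨w, hw, rfl⟩ := h1 hv
    rw [← map_mul, ← map_mul, hab w hw x hx]
  have h3 : P ≤ (pCore p (G ⧸ N)).comap π := map_le_iff_le_comap.1 h2
  obtain ⟨y, hy, h⟩ := (hP.of_le h3 le_top).frattini (g := g) (by rw [normalizer_eq_top]; trivial)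
  obtain ⟨w, hw, e⟩ := h1 hy
  refine ⟨w⁻¹ * y, QuotientGroup.eq.1 e, ?_⟩
  rw [mul_assoc]
  exact mul_mem (inv_mem (le_normalizer hw)) h

/-- the Brauer correspondent consists of the characters above the Glauberman correspondent -/
theorem inv_mem_iff (hM : IsPModular p M) (N : Subgroup G) [N.Normal] (hN : (Nat.card N).Coprime p)
    {θ : IrrCharacter N} {P C : Subgroup G} [Fintype C] (hP : IsPGroup p P) (hst : ⊤ ≤ stab N θ)
    (hC : C = N ⊓ Cz P) (hCN : C ≤ N) {β : IrrCharacter C} (hβ : ¬ p ∣ mult (inclusion hCN) (θ : N → ℂ) β)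
    (ι : L →* G) (hι : Function.Injective ι) (hr : ι.range = Nz P) (κ : C →* L) (hκ : ∀ x, ι (κ x) = x)
    {c : Set (IrrCharacter L)} (hc : IsPBlock M c) (h : emb ι (eB hM c) = br P (sB hM N {θ}))
    (ψ : IrrCharacter L) : ψ ∈ c ↔ classInner (fun x : C => (ψ : L → ℂ) (κ x)) (β : C → ℂ) ≠ 0 := by
  have hN' : ¬ p ∣ Nat.card N := hp.out.coprime_iff_not_dvd.1 hN.symm
  have hCp : (Nat.card C).Coprime p := hN.coprime_dvd_left (card_dvd_of_le hCN)
  have hκi : Function.Injective κ := fun x y e => Subtype.ext (by rw [← hκ, ← hκ, e])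
  have hn : ∀ g : L, ι g ∈ normalizer (C : Set G) := fun g => hC ▸ BrPair.inf_Nz_le_Nz_inf _ _
    ⟨by rw [Nz, normalizer_eq_top]; trivial, BrPair.Nz_le_Nz_Cz P (hr.le ⟨g, rfl⟩)⟩
  have hcj : ∀ (g : L) (x : C), g * κ x * g⁻¹ = κ ⟨ι g * x * (ι g)⁻¹, (mem_normalizer_iff.1 (hn g) _).1 x.2⟩ :=
    fun g x => hι (by simp [hκ])
  have : κ.range.Normal := ⟨by rintro _ ⟨x, rfl⟩ g; exact ⟨_, (hcj g x).symm⟩⟩
  have := Fintype.ofFinite κ.range
  have := Fintype.ofFinite N
  have hinv : ∀ g : L, conjIrr κ.range g (irrMap (MonoidHom.ofInjective hκi) β) =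
      irrMap (MonoidHom.ofInjective hκi) β := fun g => by
    refine ((BrPair.eq_irrMap_iff _ _ _).2 fun x => ?_).symm
    rw [conjIrr_apply]
    refine Eq.trans ?_ ((mem_stab_glauberman hP hN' hC hCN θ.2 (le_top.trans hst) β.2 hβ (hst (mem_top (ι g)))
      (hn g)).2 x ⟨_, (mem_normalizer_iff.1 (hn g) _).1 x.2⟩ rfl)
    rw [← BrPair.irrMap_apply (MonoidHom.ofInjective hκi) β]
    exact congrArg _ (Subtype.ext (hcj g x))
  have h1 : emb ι (sB hM κ.range {irrMap (MonoidHom.ofInjective hκi) β}) = sB hM C {β} := by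
    rw [← Set.image_singleton, sB, BrPair.eB_irrMap, ← BrPair.emb_comp, ← BrPair.emb_comp, sB]
    exact congrArg (fun f => emb f (eB hM {β})) (MonoidHom.ext hκ)
  have hb := BrPair.isBlk_sB hM (isPBlock_singleton_of_coprime hM hN θ)
  have hfix : Fixed P (sB hM N {θ}) := fun g _ =>
    (forall_conjIrr_mem_iff N hM (isPBlock_singleton_of_coprime hM hN θ)).1 (by
      rintro _ rfl
      exact Subtype.ext (funext fun n => (hst (mem_top g)).2 n _ rfl))
  have h2 := isBlk_br_of_coprime hN hb (coeff_one_sB_singleton_ne_zero hM hN θ) hP hfix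
  have hb' := BrPair.isBlk_sB hM (isPBlock_singleton_of_coprime hM hCp β)
  have h3 : br P (sB hM N {θ}) = sB hM C {β} := by
    obtain ⟨t, ht, e⟩ := res_eB_mul_eB hM hN (inclusion hCN) (inclusion_injective hCN) θ β hβ
    refine (hC ▸ h2 : IsBlk C _).eq_of_mul_ne_zero (BrPair.isCom_fixSub le_rfl) hb' ?_
    rw [BrPair.br_eq_trunc_of_supp hb.mem.1, ← hC, BrPair.trunc_mul_sB,
      show res C.subtype (sB hM N {θ}) = res (inclusion hCN) (eB hM {θ}) from BrPair.ext' fun x =>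
        BrPair.coeff_emb_apply N.subtype_injective (eB hM {θ}) (inclusion hCN x), e, map_smul]
    exact smul_ne_zero ht hb'.ne
  have h4 : eB hM c = eB hM (overSet κ.range {irrMap (MonoidHom.ofInjective hκi) β}) :=
    BrPair.emb_injective hι (by rw [h, h3, ← h1, sB_singleton_eq _ hM hinv])
  rw [BrPair.eq_of_eB_eq hM (blockIdem_mem_OG hM hc) (blockIdem_overSet_mem_OG _ hM (by
      rintro g _ rfl; exact hinv g) (blockIdem_mem_OG hM (isPBlock_singleton_of_coprime hM
        (by rwa [← Nat.card_congr (MonoidHom.ofInjective hκi).toEquiv]) _))) h4,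
    mem_overSet_singleton, classInner_irrMap_ofInjective]

theorem inv_two (hM : IsPModular p M) (N : Subgroup G) [N.Normal] [Fintype N] (hN : (Nat.card N).Coprime p)
    (hC : Cz (pCore p (G ⧸ N)) ≤ pCore p (G ⧸ N)) {θ : IrrCharacter N} (hinv : ∀ g, conjIrr N g θ = θ)
    {P : Subgroup G} (hP : SylIn p P ⊤) (hab : ∀ x ∈ P, ∀ y ∈ P, x * y = y * x) (ι : L →* G)
    (hι : Function.Injective ι) (hr : ι.range = Nz P) {c : Set (IrrCharacter L)} (hc : IsPBlock M c)
    (h : emb ι (eB hM c) = br P (sB hM N {θ})) :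
    ∃ (K : Type u) (_ : Group K) (_ : Finite K) (S : Set (IrrCharacter K)),
      (∃ I ε, IsPerfectIsometry p M S c I ε) ∧ ∃ I ε, IsPerfectIsometry p M S (overSet N {θ}) I ε := by
  classical
  have hN' : ¬ p ∣ Nat.card N := hp.out.coprime_iff_not_dvd.1 hN.symm
  have hst : ⊤ ≤ stab N θ := fun g _ => ⟨by rw [normalizer_eq_top]; trivial, fun m m' e => by
    rw [← congrFun (congrArg Subtype.val (hinv g)) m, conjIrr_apply]
    exact congrArg _ (Subtype.ext e)⟩
  obtain ⟨C, hCd⟩ : ∃ C, C = N ⊓ Cz P := ⟨_, rfl⟩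
  have hCN : C ≤ N := hCd ▸ inf_le_left
  have := Fintype.ofFinite C
  obtain ⟨β, hβ, hm, -⟩ := glauberman_exists hP.isPGroup hN' hCd hCN θ.2 (le_top.trans hst)
  have hCd' : C = N ⊓ ι.range := by
    rw [hr, hCd, inf_normalizer_eq hN' hP.isPGroup (by rw [normalizer_eq_top]; exact le_top)]
  have hCr : C ≤ ι.range := hCd' ▸ inf_le_right
  let e := (MonoidHom.ofInjective hι).symm.toMonoidHom
  have he : ∀ x, ι (e x) = x := MonoidHom.apply_ofInjective_symm hι
  have hcm := inv_mem_iff hM N hN hP.isPGroup hst hCd hCN (β := ⟨β, hβ⟩) hm ι hι hr (e.comp (inclusion hCr))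
    (fun x => he _) hc h
  obtain ⟨Γ, _, _, a, ha⟩ := exists_acover_coprime le_top θ.2 hst hN'
  have hπ : Function.Surjective a.π := MonoidHom.range_eq_top.1 a.range
  obtain ⟨Q, hQ, hiQ, hQP⟩ := exists_sylow_lift a.π hP.isPGroup (le_top.trans a.range.ge)
    (by rw [a.range]; exact hP.not_dvd_relIndex)
  have h1 := comap_normalizer_map a.π hQ hiQ
  rw [hQP, sup_eq_right.mpr (a.central.trans (center_le_normalizer _)), ← show _ = normalizer (P : Set G) from hr] at h1
  have hN'' := not_dvd_card_comap a.π ha hN'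
  have := Fintype.ofFinite (C.comap a.π)
  have hE : (fun n : N.comap a.π => a.E n) = fun n => a.μ n * (θ : N → ℂ) (a.π.subgroupComap N n) :=
    funext fun n => a.E_eq n _ rfl
  obtain ⟨ξ, hξ, hξβ⟩ := dg (H := ι.range.comap a.π) (C := C.comap a.π) hN'' hQ (fun x hx y hy => by
      have h2 : x * y * (y * x)⁻¹ ∈ a.π.ker := by
        rw [MonoidHom.mem_ker, map_mul, map_inv, map_mul, map_mul, hab _ (hQP.le ⟨x, hx, rfl⟩) _ (hQP.le ⟨y, hy, rfl⟩),
          mul_inv_cancel]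
      exact mul_inv_eq_one.1 (eq_one_of_mem_pgroup hQ (mul_mem (mul_mem hx hy) (inv_mem (mul_mem hy hx))) ha
        (congrArg Subtype.val (pow_card_eq_one' (x := (⟨_, h2⟩ : a.π.ker))))))
    h1.le (by rw [← inf_normalizer_eq hN'' hQ (by rw [normalizer_eq_top]; exact le_top), hCd', comap_inf, h1])
    (comap_mono hCN) (comap_mono hCr) a.char
    (hE ▸ isIrr_linear_mul a.μ (isIrr_comp_of_surjective _ (subgroupComap_surj a.π (le_top.trans a.range.ge)) θ.2))
    (isIrr_linear_mul (a.μ.comp (inclusion (comap_mono hCN)))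
      (isIrr_comp_of_surjective _ (subgroupComap_surj a.π (B := C) (le_top.trans a.range.ge)) hβ)) (by
      rw [hE]
      rwa [← mult_comap a.π hCN (le_top.trans a.range.ge), ← mult_linear_mul _ a.μ] at hm)
  have := a.normal
  let q := QuotientGroup.mk' a.R
  have hq : Function.Surjective q := QuotientGroup.mk'_surjective _
  have hk : ∀ {x}, x ∈ q.ker ↔ x ∈ a.R := fun {x} => by rw [QuotientGroup.ker_mk']
  have hRN : ∀ x ∈ q.ker, x ∈ N.comap a.π := fun x hx => a.sup.ge (mem_sup_right (hk.1 hx))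
  have hZN : ∀ x ∈ a.π.ker, x ∈ N.comap a.π := fun x hx => a.sup.ge (mem_sup_left hx)
  have hRp : ¬ p ∣ Nat.card q.ker := fun h => hN'' (h.trans (card_dvd_of_le hRN))
  have hlift : ∀ n ∈ N, ∃ r ∈ q.ker, a.π r = n := fun n hn => by
    obtain ⟨x, rfl⟩ := hπ n
    obtain ⟨z, hz, r, hr, rfl⟩ := mem_sup_of_normal_right.1 (a.sup.le hn)
    exact ⟨r, hk.2 hr, by rw [map_mul, hz, one_mul]⟩
  let σ : q.ker →* N := (a.π.comp q.ker.subtype).codRestrict N fun x => hRN x x.2
  have hσ : Function.Surjective σ := fun n => by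
    obtain ⟨r, hr, e⟩ := hlift n n.2
    exact ⟨⟨r, hr⟩, Subtype.ext e⟩
  have hEσ : (fun n : q.ker => a.E n) = fun n => (θ : N → ℂ) (σ n) := funext fun n => by
    rw [a.E_eq ⟨n, hRN n n.2⟩ (σ n) rfl, a.μ_R _ (hk.1 n.2), Units.val_one, one_mul]
  let lam : Γ → ℂ := fun z => if hz : z ∈ N.comap a.π then a.μ ⟨z, hz⟩ else 0
  have := Fintype.ofFinite q.ker
  have key1 := pi_span hM a.π q hπ hq a.central ha hRp a.char (hEσ ▸ isIrr_comp_of_surjective σ hσ θ.2) lam
    fun z hz => by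
      rw [a.E_eq ⟨z, hZN z hz⟩ 1 hz, show a.E 1 = _ from a.E_eq 1 1 (map_one _), map_one, Units.val_one, one_mul]
      simp only [lam, dif_pos (hZN z hz)]
  -- the local side
  let H := ι.range.comap a.π
  let π' : H →* L := e.comp (a.π.subgroupComap ι.range)
  have hπ' : ∀ x : H, ι (π' x) = a.π x := fun x => he _
  have hk' : ∀ {x : H}, x ∈ π'.ker ↔ (x : Γ) ∈ a.π.ker := fun {x} => by
    rw [MonoidHom.mem_ker, MonoidHom.mem_ker, ← hπ', map_eq_one_iff ι hι]
  let q' := q.comp H.subtype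
  have hCm : ∀ x : H, (x : Γ) ∈ N.comap a.π → (x : Γ) ∈ C.comap a.π := fun x hx => hCd'.ge ⟨hx, x.2⟩
  have hξ' : ∀ (x : H) (hx : (x : Γ) ∈ N.comap a.π), ξ x = a.μ ⟨x, hx⟩ * β ⟨a.π x, hCm x hx⟩ := fun x hx =>
    hξβ ⟨x, hCm x hx⟩
  let σ' : q'.ker →* C := (a.π.comp (H.subtype.comp q'.ker.subtype)).codRestrict C fun x => hCm x (hRN x x.2)
  have hσ' : Function.Surjective σ' := fun n => by
    obtain ⟨r, hr, e⟩ := hlift n (hCN n.2)
    exact ⟨⟨⟨r, show a.π r ∈ ι.range from e ▸ hCr n.2⟩, hr⟩, Subtype.ext e⟩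
  have hξσ : (fun n : q'.ker => ξ n) = fun n => β (σ' n) := funext fun n => by
    rw [hξ' n (hRN n n.2), a.μ_R _ ((hk (x := ((n : H) : Γ))).1 n.2), Units.val_one, one_mul]; rfl
  have := Fintype.ofFinite q'.ker
  have key2 := pi_span hM π' q' (fun l => by
      obtain ⟨x, hx⟩ := hπ (ι l)
      exact ⟨⟨x, l, hx.symm⟩, hι ((hπ' _).trans hx)⟩) (fun k => by
      obtain ⟨x, rfl⟩ := hq k
      obtain ⟨n, hn, h2⟩ := inv_frattini N hC hP hab (a.π x)
      obtain ⟨r, hr', rfl⟩ := hlift n hn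
      exact ⟨⟨r * x, show a.π (r * x) ∈ ι.range by rwa [hr, map_mul]⟩,
        show q (r * x) = q x by rw [map_mul, hr', one_mul]⟩)
    (fun z hz => mem_center_iff.2 fun y => Subtype.ext (mem_center_iff.1 (a.central (hk'.1 hz)) y))
    (fun h => ha (h.trans (by
      rw [show π'.ker = a.π.ker.comap H.subtype from Subgroup.ext fun _ => hk']
      exact card_comap_dvd_of_injective _ _ H.subtype_injective)))
    (fun h => hRp (h.trans (card_comap_dvd_of_injective q.ker _ H.subtype_injective)))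
    (isCharacter_of_isIrr hξ) (hξσ ▸ isIrr_comp_of_surjective σ' hσ' hβ) (fun z => lam z) fun z hz => by
      have hz' := hk'.1 hz
      rw [hξ' z (hZN z hz'), hξ' 1 (one_mem _)]
      simp only [lam, dif_pos (hZN z hz')]
      rw [show (⟨((1 : H) : Γ), one_mem _⟩ : N.comap a.π) = 1 from rfl, map_one, Units.val_one, one_mul]
      exact congrArg (fun t => _ * β t) (Subtype.ext (hz'.trans (map_one _).symm))
  refine ⟨Γ ⧸ a.R, inferInstance, inferInstance,
    {b | ∀ z ∈ π'.ker, lam z * (b : Γ ⧸ a.R → ℂ) (q' z) = (b : Γ ⧸ a.R → ℂ) 1}, ?_, ?_⟩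
  · convert key2 using 5
    ext ψ
    rw [hcm, Set.mem_ofPred_eq, hξσ, ← classInner_comp_of_surjective σ' hσ']
    rfl
  · convert key1 using 5
    · ext b
      exact ⟨fun h z hz => h ⟨z, show a.π z ∈ ι.range by rw [hz]; exact one_mem _⟩ (hk'.2 hz),
        fun h z hz => h z (hk'.1 hz)⟩
    · ext χ
      rw [mem_overSet_singleton, Set.mem_ofPred_eq, hEσ, ← classInner_comp_of_surjective σ hσ]
      rfl

end CfsgLib.DGN
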