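import Mathlib
import Cfsg.Prelude.Def_BlockLocal
import Cfsg.Prelude.Def_BlockRank
import Cfsg.Agent.Lib.Cover.FongReynolds
import Cfsg.Agent.Lib.Block.Principal

/-! # DGN / PERF: calculus of perfect isometries -/

set_option autoImplicit false

namespace CfsgLib.DGN

open Cfsg CfsgLib.Char CfsgLib.Block CfsgLib.Cover Subgroup Finset
open scoped ComplexConjugate

/-- there is a perfect isometry from `c` onto `B` -/
def PI {G : Type*} [Group G] {H : Type*} [Group H] (p : ℕ) (M : Ideal AlgInt) (c : Set (IrrCharacter H))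
    (B : Set (IrrCharacter G)) : Prop := ∃ I ε, IsPerfectIsometry p M c B I ε

variable {G H J : Type*} [Group G] [Group H] [Group J] {p : ℕ} {M : Ideal AlgInt}

theorem cent_inv (y : H) : centralizer ({y⁻¹} : Set H) = centralizer {y} := by
  ext k
  rw [mem_centralizer_singleton_iff, mem_centralizer_singleton_iff]
  exact Commute.inv_right_iff

theorem lr_avg [Fintype H] (hM : IsPModular p M) {f : H → ℂ} (hf : IsClassFunction H f)
    (h : ∀ y, MemLocalRing M (f y / Nat.card (centralizer ({y} : Set H)))) :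
    MemLocalRing M ((Nat.card H : ℂ)⁻¹ * ∑ y, f y) := by
  classical
  rw [← sum_fiberwise (s := univ) (g := ConjClasses.mk), mul_sum]
  refine lr_sum hM fun K _ => ?_
  obtain ⟨y, rfl⟩ := ConjClasses.mk_surjective K
  rw [sum_congr (s₂ := univ.filter fun z => IsConj y z) (g := fun _ => f y)
    (filter_congr fun z _ => by rw [ConjClasses.mk_eq_mk_iff_isConj, isConj_comm]) (fun z hz =>
      (classFun_eq_of_isConj hf (mem_filter.1 hz).2).symm), sum_const, card_filter_isConj, nsmul_eq_mul]
  convert h y using 1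
  have h1 : ((centralizer ({y} : Set H)).index : ℂ) ≠ 0 := Nat.cast_ne_zero.2 index_ne_zero_of_finite
  have h2 := natCard_ne_zero (G := centralizer ({y} : Set H))
  rw [← (centralizer ({y} : Set H)).card_mul_index]
  push_cast
  field_simp

variable [Finite G] [Finite H] [Finite J]

open Classical in
theorem ker_eq (c : Set (IrrCharacter H)) (I : IrrCharacter H → IrrCharacter G) (ε : IrrCharacter H → ℤ) (x : G)
    (y : H) : signedBijectionKernel c I ε x y =
      ∑ η ∈ univ.filter (· ∈ c), (ε η : ℂ) * (I η : G → ℂ) x * (η : H → ℂ) y := finsum_mem_irr' c _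

theorem ker_apply [Fintype H] (c : Set (IrrCharacter H)) (I : IrrCharacter H → IrrCharacter G)
    (ε : IrrCharacter H → ℤ) (x : G) {η : IrrCharacter H} (hη : η ∈ c) :
    (Nat.card H : ℂ)⁻¹ * ∑ y, signedBijectionKernel c I ε x y * (η : H → ℂ) y⁻¹ = ε η * (I η : G → ℂ) x := by
  classical
  simp only [ker_eq, sum_mul]
  rw [sum_comm, mul_sum, sum_eq_single_of_mem η (mem_filter.2 ⟨mem_univ _, hη⟩) fun ψ _ hne => ?_]
  · have := classInner_irr_self η.2
    rw [classInner_def] at this
    simp only [char_inv (irr_isCharacter η), mul_assoc, ← mul_sum]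
    rw [mul_left_comm, mul_left_comm (Nat.card H : ℂ)⁻¹, this, mul_one]
  · have := classInner_irr_of_ne ψ.2 η.2 fun h => hne (Subtype.ext h)
    rw [classInner_def] at this
    simp only [char_inv (irr_isCharacter η), mul_assoc, ← mul_sum]
    rw [mul_left_comm, mul_left_comm (Nat.card H : ℂ)⁻¹, this, mul_zero, mul_zero]

theorem PI.symm {c : Set (IrrCharacter H)} {B : Set (IrrCharacter G)} (h : PI p M c B) : PI p M B c := by
  obtain ⟨I, ε, h1, h2, h3⟩ := h
  have : Nonempty (IrrCharacter H) := ⟨irrOne H⟩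
  have h4 := h1.invOn_invFunOn
  have h5 : Set.BijOn (Function.invFunOn I c) B c := h1.symm h4.symm
  refine ⟨Function.invFunOn I c, fun χ => ε (Function.invFunOn I c χ), h5, fun χ hχ => h2 _ (h5.mapsTo hχ),
    fun y x => ?_⟩
  have : signedBijectionKernel B (Function.invFunOn I c) (fun χ => ε (Function.invFunOn I c χ)) y x =
      signedBijectionKernel c I ε x y :=
    finsum_mem_eq_of_bijOn _ h5 fun χ hχ => by rw [h4.2 hχ]; ring
  rw [this]
  exact ⟨(h3 x y).2.1, (h3 x y).1, (h3 x y).2.2.imp_left Iff.symm⟩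

theorem PI.trans (hM : IsPModular p M) {a : Set (IrrCharacter J)} {c : Set (IrrCharacter H)}
    {B : Set (IrrCharacter G)} (h : PI p M a c) (h' : PI p M c B) : PI p M a B := by
  classical
  obtain ⟨I, ε, h1, h2, h3⟩ := h
  obtain ⟨I', ε', h1', h2', h3'⟩ := h'
  have := Fintype.ofFinite H
  refine ⟨I' ∘ I, fun α => ε α * ε' (I α), h1'.comp h1, fun α hα => ?_, fun x z => ?_⟩
  · rcases h2 α hα with e | e <;> rcases h2' _ (h1.mapsTo hα) with e' | e' <;> simp [e, e']
  have hk : signedBijectionKernel a (I' ∘ I) (fun α => ε α * ε' (I α)) x z =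
      (Nat.card H : ℂ)⁻¹ * ∑ y, signedBijectionKernel c I' ε' x y * signedBijectionKernel a I ε y⁻¹ z := by
    simp only [ker_eq a, mul_sum]
    rw [sum_comm]
    refine sum_congr rfl fun α hα => ?_
    have := ker_apply c I' ε' x (h1.mapsTo (mem_filter.1 hα).2)
    rw [mul_sum] at this
    rw [Int.cast_mul, mul_assoc (ε α : ℂ), Function.comp_apply, ← this, mul_sum, sum_mul]
    exact sum_congr rfl fun y _ => by ring
  have hc : IsClassFunction H fun y => signedBijectionKernel c I' ε' x y * signedBijectionKernel a I ε y⁻¹ z :=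
    fun y g => by
      simp only [ker_eq, show (g * y * g⁻¹)⁻¹ = g * y⁻¹ * g⁻¹ by group, irr_isClassFunction _ _ g]
  rw [hk]
  refine ⟨?_, ?_, ?_⟩
  · rw [mul_div_assoc, sum_div]
    refine lr_avg hM (fun y g => congrArg (· / _) (hc y g)) fun y => ?_
    convert lr_mul hM (h3' x y).1 (h3 y⁻¹ z).1 using 1
    rw [cent_inv]; ring
  · rw [mul_div_assoc, sum_div]
    refine lr_avg hM (fun y g => congrArg (· / _) (hc y g)) fun y => ?_
    convert lr_mul hM (h3' x y).2.1 (h3 y⁻¹ z).2.1 using 1
    ring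
  · rw [or_iff_not_imp_right]
    intro h
    obtain ⟨y, -, hy⟩ := exists_ne_zero_of_sum_ne_zero (right_ne_zero_of_mul h)
    rw [(h3' x y).2.2.resolve_right (left_ne_zero_of_mul hy), ← (h3 y⁻¹ z).2.2.resolve_right (right_ne_zero_of_mul hy),
      IsPRegular, IsPRegular, orderOf_inv]

theorem PI.card_eq {c : Set (IrrCharacter H)} {B : Set (IrrCharacter G)} (h : PI p M c B) :
    Nat.card c = Nat.card B := let ⟨_, _, h1, _⟩ := h; Nat.card_congr h1.equiv

theorem PI.rank_le {c : Set (IrrCharacter H)} {B : Set (IrrCharacter G)} (h : PI p M c B) :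
    blockRank p B ≤ blockRank p c := by
  classical
  obtain ⟨I, ε, h1, h2, h3⟩ := h
  have := Fintype.ofFinite H
  let Φ : (H → ℂ) →ₗ[ℂ] G → ℂ :=
    { toFun := fun f x => (Nat.card H : ℂ)⁻¹ * ∑ y, signedBijectionKernel c I ε x y * f y⁻¹
      map_add' := fun f g => funext fun x => by simp [mul_add, sum_add_distrib]
      map_smul' := fun a f => funext fun x => by simp [mul_sum, mul_left_comm] }
  have key : ∀ η ∈ c, Φ (pRegularPart p (η : H → ℂ)) = (ε η : ℂ) • pRegularPart p (I η : G → ℂ) := fun η hη => by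
    funext x
    show (Nat.card H : ℂ)⁻¹ * ∑ y, signedBijectionKernel c I ε x y * pRegularPart p (η : H → ℂ) y⁻¹ =
      ε η * pRegularPart p (I η : G → ℂ) x
    have hr : ∀ y : H, IsPRegular p y⁻¹ ↔ IsPRegular p y := fun y => by rw [IsPRegular, IsPRegular, orderOf_inv]
    simp only [pRegularPart, hr]
    split_ifs with hx
    · rw [← ker_apply c I ε x hη]
      congr 1
      refine sum_congr rfl fun y _ => ?_
      split_ifs with hy
      · rfl
      · rw [(h3 x y).2.2.resolve_left fun h => hy (h.1 hx), zero_mul, zero_mul]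
    · rw [sum_eq_zero fun y _ => ?_, mul_zero, mul_zero]
      split_ifs with hy
      · rw [(h3 x y).2.2.resolve_left fun h => hx (h.2 hy), zero_mul]
      · rw [mul_zero]
  refine le_trans (Submodule.finrank_mono (Submodule.span_le.2 ?_)) (Submodule.finrank_map_le Φ _)
  rintro _ ⟨χ, hχ, rfl⟩
  obtain ⟨η, hη, rfl⟩ := h1.surjOn hχ
  refine ⟨(ε η : ℂ) • pRegularPart p (η : H → ℂ), Submodule.smul_mem _ _ (Submodule.subset_span ⟨η, hη, rfl⟩), ?_⟩
  rw [map_smul, key η hη, smul_smul]
  rcases h2 η hη with e | e <;> simp [e]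

theorem PI.rank_eq {c : Set (IrrCharacter H)} {B : Set (IrrCharacter G)} (h : PI p M c B) :
    blockRank p c = blockRank p B := le_antisymm h.symm.rank_le h.rank_le

/-- the identity of a block is perfect -/
theorem perfect_id (hM : IsPModular p M) {b : Set (IrrCharacter H)} (hb : IsPBlock M b) :
    IsPerfectFun p M (signedBijectionKernel b id 1) := by
  classical
  have := Fintype.ofFinite H
  have hs : ∀ x y, signedBijectionKernel b id 1 x y = signedBijectionKernel b id 1 y x := fun x y => by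
    simp only [ker_eq, id, mul_right_comm]
  have hk : ∀ x y, signedBijectionKernel b id 1 x y =
      ∑ η ∈ univ.filter (· ∈ b), (η : H → ℂ) x * conj ((η : H → ℂ) y⁻¹) := fun x y => by
    simp only [ker_eq, id, Pi.one_apply, Int.cast_one, one_mul, char_inv (irr_isCharacter _), Complex.conj_conj]
  have h1 : ∀ x y, MemLocalRing M (signedBijectionKernel b id 1 x y / Nat.card (centralizer ({y} : Set H))) :=
    fun x y => by
      rw [hk, sum_block_mul_conj_eq_blockPart,
        blockPart_eq_sum_blockCoeff (isClassFunction_smul _ (isClassFunction_classInd _)), sum_div]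
      refine lr_sum hM fun k _ => ?_
      rw [Pi.smul_apply, smul_eq_mul, ← cent_inv y, mul_div_assoc, mul_div_cancel_left₀ _ natCard_ne_zero]
      refine lr_mul hM (lr_blockCoeff hM hb k) ?_
      by_cases h : IsConj (k * x) y⁻¹
      · rw [classInd_of_isConj h]; exact lr_one hM
      · rw [classInd_of_not_isConj h]; exact lr_zero hM
  have h2 : ∀ x y, IsPRegular p x → ¬ IsPRegular p y → signedBijectionKernel b id 1 x y = 0 := fun x y hx hy => by
    rw [hk, ← finsum_mem_irr']
    exact weak_block_orth hM hb hx (by rw [orderOf_inv]; exact not_not.1 hy)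
  refine fun x y => ⟨hs x y ▸ h1 y x, h1 x y, ?_⟩
  by_cases hx : IsPRegular p x <;> by_cases hy : IsPRegular p y
  · exact .inl (iff_of_true hx hy)
  · exact .inr (h2 x y hx hy)
  · exact .inr (hs x y ▸ h2 y x hy hx)
  · exact .inl (iff_of_false hx hy)

/-- if induction is a bijection on a block, it is a perfect isometry -/
theorem pi_ind {G : Type*} [Group G] [Fintype G] (hM : IsPModular p M) (T : Subgroup G) {b : Set (IrrCharacter T)}
    (hb : IsPBlock M b) (h1 : ∀ ψ ∈ b, IsIrrCharacter G (indFun T (ψ : T → ℂ)))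
    (h2 : ∀ ψ ∈ b, ∀ ψ' ∈ b, indFun T (ψ : T → ℂ) = indFun T (ψ' : T → ℂ) → ψ = ψ') :
    PI p M b {χ : IrrCharacter G | ∃ ψ ∈ b, (χ : G → ℂ) = indFun T (ψ : T → ℂ)} := by
  classical
  have := Fintype.ofFinite T
  let I : IrrCharacter T → IrrCharacter G := fun ψ => if h : ψ ∈ b then ⟨_, h1 ψ h⟩ else irrOne G
  have hI : ∀ ψ ∈ b, (I ψ : G → ℂ) = indFun T (ψ : T → ℂ) := fun ψ h => by simp only [I, dif_pos h]
  refine ⟨I, 1, ⟨fun ψ h => ⟨ψ, h, hI ψ h⟩, fun ψ h ψ' h' e => h2 ψ h ψ' h' (by rw [← hI ψ h, ← hI ψ' h', e]),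
    fun χ ⟨ψ, h, e⟩ => ⟨ψ, h, Subtype.ext ((hI ψ h).trans e.symm)⟩⟩, fun _ _ => .inl rfl, fun x y => ?_⟩
  have h3 := perfect_id hM hb
  have hc : IsClassFunction T fun t => signedBijectionKernel b id 1 t y := fun t g => by
    simp only [ker_eq, irr_isClassFunction _ _ g]
  have hk : signedBijectionKernel b I 1 x y = indFun T (fun t => signedBijectionKernel b id 1 t y) x := by
    rw [show (fun t => signedBijectionKernel b id 1 t y) =
      ∑ ψ ∈ univ.filter (· ∈ b), (ψ : T → ℂ) y • (ψ : T → ℂ) from funext fun t => by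
        simp [ker_eq, mul_comm], indFun_sum, ker_eq, Finset.sum_apply]
    refine sum_congr rfl fun ψ hψ => ?_
    rw [hI ψ (mem_filter.1 hψ).2, indFun_smul]
    simp [mul_comm]
  rw [hk]
  refine ⟨?_, ?_, ?_⟩
  · rw [indFun_apply', sum_conj_eq_card_centralizer_smul (extendByZero T fun t => signedBijectionKernel b id 1 t y),
      nsmul_eq_mul, mul_div_assoc, mul_div_cancel_left₀ _ natCard_ne_zero, sum_filter]
    have e : ∑ a : G, (if IsConj x a then extendByZero T (fun t => signedBijectionKernel b id 1 t y) a else 0) =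
        ∑ t : T, if IsConj x (t : G) then signedBijectionKernel b id 1 t y else 0 := by
      rw [← sum_subset (subset_univ (univ.filter (· ∈ T))) fun a _ ha => by
        rw [extendByZero_of_not_mem T _ (by simpa using ha), ite_self], sum_subtype (p := (· ∈ T)) _ (by simp)]
      exact sum_congr rfl fun t _ => by rw [Char.extendByZero_coe]
    rw [e]
    refine lr_avg hM (fun t g => ?_) fun t => ?_
    · exact if_congr ⟨fun h => h.trans (isConj_iff.2 ⟨(g : G)⁻¹, by simp [mul_assoc]⟩),
        fun h => h.trans (isConj_iff.2 ⟨g, rfl⟩)⟩ (hc t g) rfl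
    · split_ifs
      · exact (h3 t y).1
      · rw [zero_div]; exact lr_zero hM
  · rw [div_eq_inv_mul, ← smul_eq_mul, ← Pi.smul_apply, ← indFun_smul]
    exact lr_indFun hM T (isClassFunction_smul _ hc) (fun t => by
      rw [Pi.smul_apply, smul_eq_mul, ← div_eq_inv_mul]; exact (h3 t y).2.1) x
  · rw [or_iff_not_imp_left]
    refine fun h => indFun_eq_zero_of_forall T _ fun g hg => (h3 _ y).2.2.resolve_left fun h' => h ?_
    rw [← h', IsPRegular, IsPRegular, ← orderOf_coe]
    exact (congrArg (fun n => ¬ p ∣ n) ((MulAut.conj g).orderOf_eq x)).symm.to_iff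

end CfsgLib.DGN
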