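import Mathlib
import Cfsg.Agent.Lib.DGN.Inv
import Cfsg.Agent.Lib.DGN.Perf

/-! # DGN / FONG, part 3: the Fong–Reynolds induction -/

set_option autoImplicit false

namespace CfsgLib.DGN

attribute [local implicit_reducible] CfsgLib.Block.K

open Cfsg MonoidAlgebra CfsgLib.Char CfsgLib.Block CfsgLib.Cover Subgroup
open CfsgLib.BrPair (cS Cz Nz br emb cj Fixed IsBlk IsDef sB irrMap)

section Aux

variable {G L : Type*} [Group G] [Finite G] [Group L] [Finite L] {p : ℕ} [hp : Fact p.Prime] {M : Ideal AlgInt}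

theorem covers_hom (hM : IsPModular p M) {X : Type*} [Group X] [Fintype X] (κ : X →* G) (hκ : Function.Injective κ)
    (hn : κ.range.Normal) {b : Set (IrrCharacter X)} (hb : IsPBlock M b) (hf : Fixed ⊤ (emb κ (eB hM b)))
    {B : Set (IrrCharacter G)} (hB : IsPBlock M B) :
    (∃ ψ ∈ B, ∃ θ ∈ b, classInner (fun n : X => (ψ : G → ℂ) (κ n)) (θ : X → ℂ) ≠ 0) ↔
      emb κ (eB hM b) * eB hM B = eB hM B := by
  have := Fintype.ofFinite κ.range
  have hb' := BrPair.isPBlock_irrMap hM (MonoidHom.ofInjective hκ) hb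
  have h1 : sB hM κ.range (irrMap (MonoidHom.ofInjective hκ) '' b) = emb κ (eB hM b) := by
    rw [sB, BrPair.eB_irrMap, ← BrPair.emb_comp]; rfl
  rw [← h1, sB, ← covers_iff_emb_mul κ.range hM hb'
    (fun g => (forall_conjIrr_mem_iff _ hM hb').2 (h1 ▸ hf g (mem_top g))) hB, Covers]
  simp only [Set.exists_mem_image, classInner_irrMap_ofInjective]

theorem isBlk_br {k : Type*} [Field k] [CharP k p] {D : Subgroup G} {b : k[G]} (hb : IsBlk ⊤ b)
    (hD : IsDef p ⊤ D b) : IsBlk (Nz D) (br D b) := by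
  have := hb.br_of_isDef le_rfl BrPair.top_le_Nz_top hD
  rw [top_inf_eq, top_inf_eq] at this
  rwa [IsBlk, BrPair.isPrim_iff_of_normal le_rfl le_normalizer le_rfl hD.pgroup, inf_eq_right.2 (BrPair.Cz_le_Nz D)]

theorem exists_block (hM : IsPModular p M) {ι : L →* G} (hι : Function.Injective ι) {f : (K hM)[G]}
    (hf : IsBlk ι.range f) : ∃ c : Set (IrrCharacter L), IsPBlock M c ∧ emb ι (eB hM c) = f := by
  have h1 := hf.mem.1.emb_res hι
  obtain ⟨c, hc, e⟩ := BrPair.exists_eB hM ((BrPair.isPrim_emb_range_iff hι).1 (h1.symm ▸ hf))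
  exact ⟨c, hc, e ▸ h1⟩

theorem pi_fr (hM : IsPModular p M) (N : Subgroup G) [N.Normal] [Fintype N] {T : Subgroup G}
    {b : Set (IrrCharacter N)} (hb : IsPBlock M b) (hT : ∀ g, g ∈ T ↔ ∀ θ ∈ b, conjIrr N g θ ∈ b) (hNT : N ≤ T)
    {B' : Set (IrrCharacter T)} (hB' : IsPBlock M B') (hcov : ∃ ψ ∈ B', ∃ θ ∈ b,
      classInner (fun n : N => (ψ : T → ℂ) ⟨n, hNT n.2⟩) (θ : N → ℂ) ≠ 0) :
    ∃ B : Set (IrrCharacter G), IsInducedBlock M T B' B ∧ PI p M B' B := by
  have := Fintype.ofFinite G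
  have := Fintype.ofFinite T
  obtain ⟨h1, h2⟩ := fongReynolds N hM hb hT hNT hB' hcov
  refine ⟨_, h2, pi_ind hM T hB' h1 fun ψ hψ ψ' hψ' he => ?_⟩
  have h0 := fun ψ hψ => exists_under_of_covers_hom hM (inclusion_injective hNT)
    (range_inclusion_normal hNT (by rw [Nz, normalizer_eq_top]; exact le_top)) hB' hb hcov (χ := ψ) hψ
  obtain ⟨θ, hθ, h⟩ := h0 ψ hψ
  obtain ⟨θ', hθ', h'⟩ := h0 ψ' hψ'
  exact Subtype.ext (eq_of_indFun_eq_of_over N hM hb hT hNT hθ hθ' ψ.2 ψ'.2 h h' he)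

/-- the Fong–Reynolds reduction is compatible with the Brauer correspondence -/
theorem fong_step (hM : IsPModular p M) (N : Subgroup G) [N.Normal] [Fintype N] (hN : (Nat.card N).Coprime p)
    {θ : IrrCharacter N} {T : Subgroup G}
    (hT : ∀ g, g ∈ T ↔ ∀ θ' ∈ ({θ} : Set (IrrCharacter N)), conjIrr N g θ' ∈ ({θ} : Set (IrrCharacter N)))
    (hNT : N ≤ T) {B' : Set (IrrCharacter T)} (hcov : ∃ ψ ∈ B', ∃ θ' ∈ ({θ} : Set (IrrCharacter N)),
      classInner (fun n : N => (ψ : T → ℂ) ⟨n, hNT n.2⟩) (θ' : N → ℂ) ≠ 0) {B : Set (IrrCharacter G)}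
    (hind : IsInducedBlock M T B' B) {D : Subgroup T} (hD : IsPGroup p D) {ι : L →* G} (hι : Function.Injective ι)
    (hr : ι.range = Nz (D.map T.subtype)) {c : Set (IrrCharacter L)} (hc : IsPBlock M c)
    (h : emb ι (eB hM c) = br (D.map T.subtype) (eB hM B)) {c' : Set (IrrCharacter (T.comap ι))} (hc' : IsPBlock M c')
    (h' : emb (ι.subgroupComap T) (eB hM c') = br D (eB hM B')) : PI p M c' c := by
  obtain ⟨hB', hB, hI⟩ := (BrPair.isInducedBlock_iff hM).1 hind
  set P := D.map T.subtype with hPd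
  have hP : IsPGroup p P := hD.map _
  have hPT : P ≤ T := map_subtype_le D
  have hb := isPBlock_singleton_of_coprime hM hN θ
  have he := BrPair.isBlk_sB hM hb
  have hst : ∀ g, g ∈ T ↔ cj g (sB hM N {θ}) = sB hM N {θ} := fun g => (hT g).trans (forall_conjIrr_mem_iff N hM hb)
  have hfix : Fixed P (sB hM N {θ}) := fun g hg => (hst g).1 (hPT hg)
  have he' := isBlk_br_of_coprime hN he (coeff_one_sB_singleton_ne_zero hM hN θ) hP hfix
  have hst' : ∀ g : L, ι g ∈ T ↔ cj (ι g) (br P (sB hM N {θ})) = br P (sB hM N {θ}) := fun g => by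
    have hg : cS (ι g) P = P := BrPair.mem_Nz_iff_cS.1 (hr.le ⟨g, rfl⟩)
    rw [hst, BrPair.cj_br, hg]
    refine ⟨fun e => by rw [e], fun e => ?_⟩
    have h1 := he.cj (ι g)
    rw [BrPair.mem_Nz_iff_cS.1 (show ι g ∈ Nz N by rw [Nz, normalizer_eq_top]; trivial)] at h1
    refine h1.eq_of_mul_ne_zero (BrPair.isCom_fixSub le_rfl) he fun h0 => he'.ne ?_
    rw [← he'.idem.eq]
    nth_rewrite 1 [← e]
    rw [← BrPair.br_mul hP (hg ▸ hfix.cj (ι g)) hfix, h0, map_zero]
  have := Fintype.ofFinite (N.comap ι)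
  obtain ⟨b, hb', e1⟩ := exists_block hM (ι := ι.comp (N.comap ι).subtype) (hι.comp (subtype_injective _))
    (f := br P (sB hM N {θ})) (by
      rwa [BrPair.range_comp_subtype, map_comap_eq, hr, inf_comm, McKay.inf_normalizer_eq
        (hp.out.coprime_iff_not_dvd.1 hN.symm) hP (by rw [normalizer_eq_top]; exact le_top)])
  have hj : Function.Injective (ι.comp (T.comap ι).subtype) := hι.comp (subtype_injective _)
  have e2 : emb (ι.comp (T.comap ι).subtype) (eB hM c') = br P (sB hM T B') := by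
    rw [hPd, sB, BrPair.br_emb T.subtype_injective, ← h', ← BrPair.emb_comp]; rfl
  have hCT : N.comap ι ≤ T.comap ι := comap_mono hNT
  have e3 : emb (ι.comp (T.comap ι).subtype) (emb (inclusion hCT) (eB hM b)) = br P (sB hM N {θ}) := by
    rw [← e1, ← BrPair.emb_comp]; rfl
  have e4 : emb T.subtype (emb (inclusion hNT) (eB hM {θ})) = sB hM N {θ} := by rw [← BrPair.emb_comp]; rfl
  have e5 := congrArg (emb T.subtype) ((covers_hom hM _ (inclusion_injective hNT)
    (range_inclusion_normal hNT (by rw [Nz, normalizer_eq_top]; exact le_top)) hb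
    (fun g _ => (BrPair.mem_stab_emb_iff T.subtype_injective).1 (e4 ▸ (hst g).1 g.2)) hB').1 hcov)
  rw [map_mul, e4] at e5
  have hT' := BrPair.isBlk_sB hM hB'
  obtain ⟨c₁, hi, hpi⟩ := pi_fr hM (N.comap ι) hb' (T := T.comap ι) (fun g => by
      rw [forall_conjIrr_mem_iff _ hM hb', ← BrPair.mem_stab_emb_iff hι, sB, ← BrPair.emb_comp, e1]
      exact hst' g) hCT hc' ((covers_hom hM _ (inclusion_injective hCT)
    (range_inclusion_normal hCT (by rw [Nz, normalizer_eq_top]; exact le_top)) hb'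
    (fun g _ => (BrPair.mem_stab_emb_iff hj).1 (e3 ▸ (hst' g).1 g.2)) hc').2 (BrPair.emb_injective hj (by
      rw [map_mul, e3, e2, ← BrPair.br_mul hP hfix (hT'.mem.2.mono hPT)]
      exact congrArg (br P) e5)))
  obtain ⟨-, hc₁, hI₁⟩ := (BrPair.isInducedBlock_iff hM).1 hi
  rw [← BrPair.ind_emb_iff hι, sB, ← BrPair.emb_comp, e2, ← MonoidHom.range_eq_map, map_comap_eq, hr] at hI₁
  have hf : IsBlk (Nz P ⊓ T) (br P (sB hM T B')) := by
    have := (BrPair.isPrim_emb_range_iff hj).2 (BrPair.isBlk_eB hM hc')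
    rwa [e2, BrPair.range_comp_subtype, map_comap_eq, hr] at this
  have hI₂ : BrPair.Ind T (Nz P ⊓ T) (br P (sB hM T B')) (sB hM T B') :=
    (BrPair.ind_iff_br_mul inf_le_right (le_inf (inf_le_right.trans (BrPair.Cz_le_Nz P)) inf_le_left) hf hT'
      (le_inf le_normalizer hPT) inf_le_left hP).2 (by rw [hf.idem.eq]; exact hf.ne)
  have h1 := (BrPair.ind_iff_br_mul le_top (inf_le_right.trans (BrPair.Cz_le_Nz P))
    (hr ▸ (BrPair.isPrim_emb_range_iff hι).2 (BrPair.isBlk_eB hM hc₁)) (BrPair.isBlk_eB hM hB) le_normalizer le_rfl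
    hP).1 (hI₁.cancel (hI₂.trans hI inf_le_right le_top) inf_le_left le_top)
  rw [← h, ← map_mul] at h1
  rwa [BrPair.eq_of_eB_eq hM (blockIdem_mem_OG hM hc) (blockIdem_mem_OG hM hc₁) ((BrPair.isBlk_eB hM hc).eq_of_mul_ne_zero
    (BrPair.isCom_fixSub le_rfl) (BrPair.isBlk_eB hM hc₁) fun h0 => h1 (by rw [h0, map_zero]))]

end Aux

universe u v

theorem fong_main {G : Type u} {L : Type v} [Group G] [Finite G] [Group L] [Finite L] {p : ℕ} [hp : Fact p.Prime]
    {M : Ideal AlgInt} (hM : IsPModular p M) (hG : IsPSolvable p G) {B : Set (IrrCharacter G)} (hB : IsPBlock M B)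
    {P : Subgroup G} (hP : IsDefectGroup p M B P) (hab : ∀ x ∈ P, ∀ y ∈ P, x * y = y * x) {ι : L →* G}
    (hι : Function.Injective ι) (hr : ι.range = Nz P) {c : Set (IrrCharacter L)} (hc : IsPBlock M c)
    (h : emb ι (eB hM c) = br P (eB hM B)) : PI p M c B := by
  induction hn : Nat.card G using Nat.strong_induction_on generalizing G L with
  | _ n ih =>
  have := Fintype.ofFinite G
  set N := pPrimeCore p G with hN
  have := Fintype.ofFinite N
  obtain ⟨χ, hχ⟩ := IsPBlock_nonempty hM hB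
  obtain ⟨θ, hθ⟩ := exists_under N χ
  have hNp : (Nat.card N).Coprime p := PLocal.PSolv.coprime_card_pPrimeCore
  by_cases hT : inertia N (θ : N → ℂ) = ⊤
  · have hinv := conjIrr_eq_of_inertia_eq_top N hT
    obtain ⟨h1, h2⟩ := eq_overSet_of_isPSolvable hM hG hinv hB hχ hθ
    obtain ⟨K, _, _, S, h3, h4⟩ := inv_two hM N hNp (Cz_pCore_le_of_isPSolvable hG) hinv ((h2 P).1 hP) hab ι hι hr hc
      (by rw [h, sB_singleton_eq N hM hinv, ← h1])
    exact (PI.symm h3).trans hM (h1 ▸ h4)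
  · set T := inertia N (θ : N → ℂ) with hTdef
    have := Fintype.ofFinite T
    have hb := isPBlock_singleton_of_coprime hM hNp θ
    have hT' := mem_inertia_iff_forall N θ
    have hNT : N ≤ T := le_inertia N (irr_isClassFunction θ)
    obtain ⟨B', hcov, hind⟩ := fongReynolds_surj N hM hb hT' hNT hB ⟨χ, hχ, θ, rfl, hθ⟩
    obtain ⟨B₁, hi, hpi⟩ := pi_fr hM N hb hT' hNT hind.1 hcov
    rw [isInducedBlock_unique hM hi hind] at hpi
    obtain ⟨D, hD⟩ := exists_isDefectGroup hM hind.1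
    obtain ⟨g, -, hg⟩ := ((BrPair.isDefectGroup_iff hM hB).1 hP).exists_conj ((BrPair.isDefectGroup_iff hM hB).1
      ((fongReynolds_defect_height N hM hb hT' hNT hcov hind).1 D hD))
    let ι' := (MulAut.conj g).toMonoidHom.comp ι
    have hι' : Function.Injective ι' := (MulAut.conj g).injective.comp hι
    have hr' : ι'.range = Nz (D.map T.subtype) := by rw [hg, BrPair.Nz_cS, ← hr, MonoidHom.range_comp]
    have h' : emb ι' (eB hM c) = br (D.map T.subtype) (eB hM B) := by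
      rw [hg, ← (BrPair.isBlk_eB hM hB).mem.2 g (mem_top g), ← BrPair.cj_br, ← h, BrPair.emb_comp]; rfl
    have hιT : Function.Injective (ι'.subgroupComap T) := fun x y e => Subtype.ext (hι' (congrArg Subtype.val e))
    have hrT : (ι'.subgroupComap T).range = Nz D := Subgroup.ext fun x => by
      rw [← BrPair.map_mem_Nz_iff T.subtype_injective, ← hr']
      exact ⟨fun ⟨y, e⟩ => ⟨y, congrArg Subtype.val e⟩, fun ⟨y, e⟩ => ⟨⟨y, show ι' y ∈ T from e ▸ x.2⟩, Subtype.ext e⟩⟩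
    obtain ⟨c', hc', e'⟩ := exists_block hM hιT (hrT ▸ isBlk_br (BrPair.isBlk_eB hM hind.1)
      ((BrPair.isDefectGroup_iff hM hind.1).1 hD))
    refine ((fong_step hM N hNp hT' hNT hcov hind (BrPair.isPGroup_of_isDefectGroup hD) hι' hr' hc h' hc' e').symm
      ).trans hM ((ih _ (hn ▸ card_lt_of_ne_top hT) (PLocal.PSolv.subgroup hG T) hind.1 hD (fun x hx y hy => ?_)
        hιT hrT hc' e' rfl).trans hM hpi)
    obtain ⟨a, ha, ea⟩ := hg.le ⟨x, hx, rfl⟩
    obtain ⟨b, hb, eb⟩ := hg.le ⟨y, hy, rfl⟩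
    refine T.subtype_injective ?_
    rw [map_mul, map_mul, ← ea, ← eb, ← map_mul, ← map_mul, hab a ha b hb]

theorem fong_pi {G : Type*} [Group G] [Finite G] {p : ℕ} [hp : Fact p.Prime] {M : Ideal AlgInt} (hM : IsPModular p M)
    (hG : IsPSolvable p G) {B : Set (IrrCharacter G)} {P : Subgroup G} (hP : IsDefectGroup p M B P)
    (hab : ∀ x ∈ P, ∀ y ∈ P, x * y = y * x) {c : Set (IrrCharacter (Nz P))} (hc : IsInducedBlock M (Nz P) c B) :
    PI p M c B := by
  obtain ⟨h1, hB, h2⟩ := (BrPair.isInducedBlock_iff hM).1 hc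
  have hD := (BrPair.isDefectGroup_iff hM hB).1 hP
  refine fong_main hM hG hB hP hab (subtype_injective _) (range_subtype _) h1 ?_
  exact ((isBlk_br (BrPair.isBlk_eB hM hB) hD).eq_of_mul_ne_zero (BrPair.isCom_fixSub le_rfl) (BrPair.isBlk_sB hM h1)
    ((BrPair.ind_iff_br_mul le_top (inf_le_right.trans (BrPair.Cz_le_Nz P)) (BrPair.isBlk_sB hM h1)
      (BrPair.isBlk_eB hM hB) le_normalizer le_rfl hD.pgroup).1 h2)).symm

end CfsgLib.DGN
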