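import Cfsg.Agent.Lib.DGN.N1

/-!
# DGN / T1: if `ad X` is free up to one trivial summand, so is `X`
-/

namespace CfsgLib.DGN

open Module

section T1

variable {K : Type*} [Field K]

/-- `ad X` is nilpotent of exponent `p` in characteristic `p`. -/
theorem ad_pow_eq_zero {E : Type*} [Ring E] [Algebra K E] {p : ℕ} [Fact p.Prime] [CharP K p]
    (X : E) (hX : X ^ p = 0) :
    (LinearMap.mulLeft K X - LinearMap.mulRight K X : Module.End K E) ^ p = 0 := by
  rcases subsingleton_or_nontrivial (Module.End K E) with h | h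
  · exact Subsingleton.elim _ _
  have : CharP (Module.End K E) p := charP_of_injective_algebraMap
    (algebraMap K (Module.End K E)).injective p
  rw [sub_pow_char_of_commute p (LinearMap.commute_mulLeft_right X X), LinearMap.pow_mulLeft,
    LinearMap.pow_mulRight, hX]
  simp

variable {V : Type*} [AddCommGroup V] [Module K V]

theorem ad_pow_apply_ker (X : Module.End K V) (i : ℕ) (ψ : Module.End K V) {v : V}
    (hv : X v = 0) :
    (((LinearMap.mulLeft K X - LinearMap.mulRight K X : Module.End K (Module.End K V)) ^ i) ψ) v =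
      (X ^ i) (ψ v) := by
  induction i generalizing ψ with
  | zero => simp
  | succ i ih =>
    rw [pow_succ, Module.End.mul_apply, ih, pow_succ, Module.End.mul_apply]
    simp [hv]

/-- T1 for endomorphisms. -/
theorem t1_end [FiniteDimensional K V] {p : ℕ} [hp : Fact p.Prime] [CharP K p]
    (X : Module.End K V) (hX : X ^ p = 0)
    (h : finrank K (Module.End K V) = p * finrank K ↥(LinearMap.range
      ((LinearMap.mulLeft K X - LinearMap.mulRight K X : Module.End K (Module.End K V)) ^ (p - 1)))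
        + 1) :
    ∃ v0 : V, X v0 = 0 ∧ v0 ∉ LinearMap.range (X ^ (p - 1)) ∧
      ∀ v, X v = 0 → ∃ (a : K) (w : V), v = a • v0 + (X ^ (p - 1)) w := by
  classical
  set δ : Module.End K (Module.End K V) := LinearMap.mulLeft K X - LinearMap.mulRight K X with hδ
  have hp1 : 1 < p := hp.out.one_lt
  have hδp : δ ^ p = 0 := ad_pow_eq_zero X hX
  -- `ker X` is not contained in `range X^(p-1)`
  have hne : ¬ LinearMap.ker X ≤ LinearMap.range (X ^ (p - 1)) := by
    intro hle
    have h1 := n1b' X hX hle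
    rw [Module.finrank_linearMap, h1] at h
    have h2 : p ∣ p * finrank K ↥(LinearMap.range (δ ^ (p - 1))) + 1 := by
      rw [← h]; exact Dvd.dvd.mul_right (dvd_mul_right _ _) _
    have := (Nat.dvd_add_right (dvd_mul_right _ _)).1 h2
    exact absurd (Nat.dvd_one.1 this) (by omega)
  have hex : ∃ a, ¬ LinearMap.ker X ≤ LinearMap.range (X ^ a) := ⟨_, hne⟩
  have ha := Nat.find_spec hex
  have hale : Nat.find hex ≤ p - 1 := Nat.find_min' hex hne
  have ha0 : Nat.find hex ≠ 0 := by
    intro h0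
    rw [h0] at ha
    apply ha
    rw [pow_zero, Module.End.one_eq_id, LinearMap.range_id]
    exact le_top
  obtain ⟨b, hb⟩ : ∃ b, Nat.find hex = b + 1 := ⟨Nat.find hex - 1, by omega⟩
  have hbmin : LinearMap.ker X ≤ LinearMap.range (X ^ b) := by
    by_contra hcon
    have := Nat.find_min' hex hcon
    omega
  rw [hb] at ha hale
  obtain ⟨v0, hv0, hv0'⟩ := Set.not_subset.1 ha
  have hv0k : X v0 = 0 := hv0
  obtain ⟨w, hw⟩ := hbmin hv0
  have hv0r : v0 ∉ LinearMap.range (X ^ (p - 1)) := fun hh => hv0' (n1_range_le X hale hh)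
  obtain ⟨f, hf1, hf2⟩ := Submodule.exists_dual_map_eq_bot_of_notMem hv0' inferInstance
  have hf0 : ∀ u, f ((X ^ (b + 1)) u) = 0 := fun u => by
    have : f ((X ^ (b + 1)) u) ∈ (LinearMap.range (X ^ (b + 1))).map f :=
      Submodule.mem_map_of_mem ⟨u, rfl⟩
    rwa [hf2] at this
  -- the rank one operator and the commuting operator
  let π : Module.End K V := f.smulRight w
  let φ : Module.End K V := ∑ i ∈ Finset.range (b + 1), X ^ i * π * X ^ (b - i)
  have hφk : δ φ = 0 := by
    have h1 : ∀ i ∈ Finset.range (b + 1), δ (X ^ i * π * X ^ (b - i)) =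
        X ^ (i + 1) * π * X ^ (b + 1 - (i + 1)) - X ^ i * π * X ^ (b + 1 - i) := by
      intro i hi
      have hi' := Finset.mem_range.1 hi
      have e1 : b + 1 - (i + 1) = b - i := by omega
      have e2 : b + 1 - i = b - i + 1 := by omega
      rw [e1, e2, pow_succ' X i, pow_succ X (b - i)]
      simp only [hδ, LinearMap.sub_apply, LinearMap.mulLeft_apply, LinearMap.mulRight_apply,
        mul_assoc]
    have h2 : δ φ = X ^ (b + 1) * π * X ^ (b + 1 - (b + 1)) - X ^ 0 * π * X ^ (b + 1 - 0) := by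
      rw [map_sum, Finset.sum_congr rfl h1]
      exact Finset.sum_range_sub (fun i => X ^ i * π * X ^ (b + 1 - i)) (b + 1)
    rw [h2]
    ext u
    have h3 : (X ^ (b + 1)) w = 0 := by
      rw [pow_succ', Module.End.mul_apply, hw, hv0k]
    simp [π, h3, hf0]
  have hφv : ∀ v, X v = 0 → φ v = f v • v0 := by
    intro v hv
    simp only [φ, LinearMap.coe_sum, Finset.sum_apply]
    rw [Finset.sum_range_succ, Finset.sum_eq_zero]
    · simp [π, hw]
    · intro i hi
      have hi' := Finset.mem_range.1 hi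
      obtain ⟨c, hc⟩ : ∃ c, b - i = c + 1 := ⟨b - i - 1, by omega⟩
      rw [hc, Module.End.mul_apply, pow_succ, Module.End.mul_apply (X ^ c), hv, map_zero, map_zero]
  -- `ker δ = K · 1 + range δ^(p-1)`
  have h1r : (1 : Module.End K V) ∉ LinearMap.range (δ ^ (p - 1)) := by
    rintro ⟨ψ, hψ⟩
    apply hv0r
    refine ⟨ψ v0, ?_⟩
    rw [← ad_pow_apply_ker X (p - 1) ψ hv0k, ← hδ, hψ]
    rfl
  have h1k : (1 : Module.End K V) ∈ LinearMap.ker δ := by
    simp [hδ]
  have hker : LinearMap.range (δ ^ (p - 1)) ⊔ Submodule.span K {(1 : Module.End K V)} =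
      LinearMap.ker δ := by
    refine Submodule.eq_of_le_of_finrank_le
      (sup_le (n1_range_le_ker δ hδp) ((Submodule.span_singleton_le_iff_mem _ _).2 h1k)) ?_
    refine (n1d δ (by omega) hδp h).trans ?_
    refine Submodule.finrank_lt_finrank_of_lt (lt_of_le_of_ne le_sup_left fun hh => h1r ?_)
    rw [hh]
    exact Submodule.mem_sup_right (Submodule.mem_span_singleton_self _)
  have hφm : φ ∈ LinearMap.range (δ ^ (p - 1)) ⊔ Submodule.span K {(1 : Module.End K V)} := by
    rw [hker]; exact hφk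
  obtain ⟨_, ⟨ψ, rfl⟩, _, hz, hsum⟩ := Submodule.mem_sup.1 hφm
  obtain ⟨κ, rfl⟩ := Submodule.mem_span_singleton.1 hz
  have hev : ∀ v, X v = 0 → (X ^ (p - 1)) (ψ v) + κ • v = f v • v0 := by
    intro v hv
    rw [← hφv v hv, ← hsum, ← ad_pow_apply_ker X (p - 1) ψ hv]
    rfl
  have hκ : κ ≠ 0 := by
    intro h0
    apply hv0r
    have h2 := hev v0 hv0k
    rw [h0, zero_smul, add_zero] at h2
    refine ⟨(f v0)⁻¹ • ψ v0, ?_⟩
    rw [map_smul, h2, smul_smul, inv_mul_cancel₀ hf1, one_smul]
  refine ⟨v0, hv0k, hv0r, fun v hv => ⟨κ⁻¹ * f v, -(κ⁻¹ • ψ v), ?_⟩⟩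
  rw [mul_smul, ← hev v hv, map_neg, map_smul, smul_add, smul_smul, inv_mul_cancel₀ hκ, one_smul]
  abel

open Matrix in
/-- T1 for matrices. -/
theorem t1 {n : Type*} [Fintype n] [DecidableEq n] {p : ℕ} [hp : Fact p.Prime] [CharP K p]
    (X : Matrix n n K) (hX : X ^ p = 0)
    (h : finrank K (Matrix n n K) = p * finrank K ↥(LinearMap.range
      ((LinearMap.mulLeft K X - LinearMap.mulRight K X : Module.End K (Matrix n n K)) ^ (p - 1)))
        + 1) :
    ∃ v0 : n → K, X *ᵥ v0 = 0 ∧ (∀ w, X ^ (p - 1) *ᵥ w ≠ v0) ∧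
      ∀ v, X *ᵥ v = 0 → ∃ (a : K) (w : n → K), v = a • v0 + X ^ (p - 1) *ᵥ w := by
  let e : Matrix n n K ≃ₐ[K] Module.End K (n → K) := Matrix.toLinAlgEquiv'
  have he : ∀ (M : Matrix n n K) (v : n → K), e M v = M *ᵥ v := fun M v =>
    Matrix.toLinAlgEquiv'_apply M v
  have hcomm : ∀ (i : ℕ) (M : Matrix n n K),
      e (((LinearMap.mulLeft K X - LinearMap.mulRight K X : Module.End K (Matrix n n K)) ^ i) M) =
      ((LinearMap.mulLeft K (e X) - LinearMap.mulRight K (e X) :
        Module.End K (Module.End K (n → K))) ^ i) (e M) := by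
    intro i
    induction i with
    | zero => simp
    | succ i ih =>
      intro M
      rw [pow_succ, Module.End.mul_apply, ih, pow_succ, Module.End.mul_apply]
      simp
  have hmap : (LinearMap.range ((LinearMap.mulLeft K X - LinearMap.mulRight K X :
      Module.End K (Matrix n n K)) ^ (p - 1))).map e.toLinearEquiv.toLinearMap =
      LinearMap.range ((LinearMap.mulLeft K (e X) - LinearMap.mulRight K (e X) :
        Module.End K (Module.End K (n → K))) ^ (p - 1)) := by
    ext F
    constructor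
    · rintro ⟨_, ⟨M, rfl⟩, rfl⟩
      exact ⟨e M, (hcomm _ M).symm⟩
    · rintro ⟨G, rfl⟩
      obtain ⟨M, rfl⟩ := e.surjective G
      exact ⟨_, ⟨M, rfl⟩, hcomm _ M⟩
  obtain ⟨v0, h1, h2, h3⟩ := t1_end (p := p) (e X) (by rw [← map_pow, hX, map_zero]) (by
    rw [← hmap, LinearEquiv.finrank_map_eq, ← e.toLinearEquiv.finrank_eq]
    exact h)
  refine ⟨v0, by rw [← he, h1], fun w hw => h2 ⟨w, by rw [← map_pow, he, hw]⟩, fun v hv => ?_⟩
  obtain ⟨a, w, hw⟩ := h3 v (by rw [he, hv])
  exact ⟨a, w, by rw [hw, ← map_pow, he]⟩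

end T1

end CfsgLib.DGN
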